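import Cfsg.Agent.Lib.Helper25.ChevFix
import Cfsg.Prelude.Def_ChevAutomorphisms
import Mathlib.FieldTheory.Fixed
import Mathlib.FieldTheory.Finite.GaloisField

set_option autoImplicit false

namespace Cfsg.Agent.Lib.Helper25

open Cfsg.Lie Matrix
open Cfsg.Agent.Lib.Helper24

/-! ### The fixed points of a field automorphism of a Chevalley group of type G₂, F₄ or E₈ -/

/-- The fixed field of an automorphism of a finite field, realised in `Type`. -/
theorem exists_fixed_field {F : Type*} [Field F] [Fintype F] (σ : F ≃+* F) :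
    ∃ (F₀ : Type) (_ : Field F₀) (_ : Fintype F₀) (ι : F₀ →+* F),
      Fintype.card F = Fintype.card F₀ ^ orderOf σ ∧ ∀ x : F, σ x = x ↔ ∃ y, ι y = x := by
  classical
  let G : Subgroup (RingAut F) := Subgroup.zpowers σ
  have hfinR : Finite (RingAut F) :=
    Finite.of_injective (fun f : RingAut F => (f : F → F)) DFunLike.coe_injective
  letI : Fintype G := Fintype.ofFinite G
  let K : Subfield F := FixedPoints.subfield G F
  have hfin : Module.finrank K F = Fintype.card G := FixedPoints.finrank_eq_card G F
  have hcardG : Fintype.card G = orderOf σ := by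
    rw [← Nat.card_eq_fintype_card]
    exact Nat.card_zpowers σ
  have hcardF : Fintype.card F = Fintype.card K ^ Module.finrank K F :=
    Module.card_eq_pow_finrank (K := K) (V := F)
  obtain ⟨p, _, n, hp, hK⟩ := FiniteField.card' K
  have : Fact p.Prime := ⟨hp⟩
  letI : Fintype (GaloisField p n) := Fintype.ofFinite (GaloisField p n)
  have hG : Fintype.card (GaloisField p n) = p ^ (n : ℕ) := by
    rw [← Nat.card_eq_fintype_card]
    exact GaloisField.card p n n.ne_zero
  let e : K ≃+* GaloisField p n := FiniteField.ringEquivOfCardEq (hK.trans hG.symm)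
  refine ⟨GaloisField p n, inferInstance, inferInstance,
    K.subtype.comp (e.symm : GaloisField p n →+* K), ?_, ?_⟩
  · rw [hcardF, hfin, hcardG, hK, hG]
  · intro x
    constructor
    · intro hx
      have hxK : x ∈ K := by
        intro g
        have hle : G ≤ MulAction.stabilizer (RingAut F) x :=
          (Subgroup.zpowers_le).2 (MulAction.mem_stabilizer_iff.2 hx)
        exact MulAction.mem_stabilizer_iff.1 (hle g.2)
      exact ⟨e ⟨x, hxK⟩, by simp⟩
    · rintro ⟨y, rfl⟩
      have := (e.symm y).2
      exact this ⟨σ, Subgroup.mem_zpowers σ⟩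

section

variable {F : Type*} [Field F]

/-- A field automorphism of the Chevalley group acts entrywise. -/
theorem fieldAut_val (D : ChevalleyDatum) (φ : MulAut ↥(D.group F)) (σ : F ≃+* F)
    (hσ : ∀ (g : ↥(D.group F)) (r : ℕ) (t : F), r < D.nroots →
      ((g : GL D.Idx F) : Matrix D.Idx D.Idx F) = D.x F r t →
        ((φ g : GL D.Idx F) : Matrix D.Idx D.Idx F) = D.x F r (σ t)) (g : ↥(D.group F)) :
    (φ g : GL D.Idx F) = Matrix.GeneralLinearGroup.map (σ : F →+* F) (g : GL D.Idx F) := by
  have hcl : Subgroup.closure (((↑) : ↥(D.group F) → GL D.Idx F) ⁻¹'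
      {g | ∃ (r : Fin D.nroots) (t : F), (g : Matrix D.Idx D.Idx F) = D.xMat F r t}) = ⊤ :=
    Subgroup.closure_closure_coe_preimage
  have hEq : ((D.group F).subtype.comp φ.toMonoidHom : ↥(D.group F) →* GL D.Idx F) =
      (Matrix.GeneralLinearGroup.map (σ : F →+* F)).comp (D.group F).subtype := by
    apply MonoidHom.eq_of_eqOn_dense hcl
    rintro g ⟨r, t, hg⟩
    have hx : ∀ t' : F, D.x F r.val t' = D.xMat F r t' := by
      intro t'
      unfold ChevalleyDatum.x
      rw [dif_pos r.isLt]
    have h1 := hσ g r.val t r.isLt (by rw [hx]; exact hg)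
    apply Units.ext
    show ((φ g : GL D.Idx F) : Matrix D.Idx D.Idx F) = _
    rw [h1]
    symm
    exact glMap_x (σ : F →+* F) D (g : GL D.Idx F) r.val t (by rw [hx]; exact hg)
  exact congrArg (fun f : ↥(D.group F) →* GL D.Idx F => f g) hEq

theorem fieldAut_pow_val (D : ChevalleyDatum) (φ : MulAut ↥(D.group F)) (σ : F ≃+* F)
    (hval : ∀ g : ↥(D.group F),
      (φ g : GL D.Idx F) = Matrix.GeneralLinearGroup.map (σ : F →+* F) (g : GL D.Idx F))
    (n : ℕ) (g : ↥(D.group F)) (i j : D.Idx) :
    (((φ ^ n) g : GL D.Idx F) : Matrix D.Idx D.Idx F) i j =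
      (σ ^ n : RingAut F) (((g : GL D.Idx F) : Matrix D.Idx D.Idx F) i j) := by
  induction n generalizing g with
  | zero => simp
  | succ n ih =>
    rw [pow_succ, pow_succ, MulAut.mul_apply, ih (φ g), hval g, val_glMap, Matrix.map_apply]
    rfl

end

section

variable {F : Type*} [Field F] [Fintype F]

/-- The fixed points of a field automorphism of order `r` of the Chevalley group of type
`G₂`, `F₄` or `E₈` over a finite field `F` form the Chevalley group of the same type over a
field `F₀` with `|F| = |F₀| ^ r`. -/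
theorem fieldAut_fixed_points (D : ChevalleyDatum) (hD3 : D ∈ [chevG2, chevF4, chevE8])
    (φ : MulAut ↥(D.group F)) (hφ : D.IsFieldAut φ) (r : ℕ) (ho : orderOf φ = r) :
    ∃ (F₀ : Type) (_ : Field F₀) (_ : Fintype F₀), Fintype.card F = Fintype.card F₀ ^ r ∧
      Nonempty (↥((MulEquiv.toMonoidHom φ).eqLocus (MonoidHom.id ↥(D.group F))) ≃*
        ↥(D.group F₀)) := by
  have hD : D ∈ [chevG2, chevB2, chevD4, chevF4, chevE6, chevE7, chevE8] := by
    simp only [List.mem_cons, List.not_mem_nil, or_false] at hD3 ⊢
    tauto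
  have hD' : D ∈ chevList := hD
  obtain ⟨σ, hσ⟩ := hφ
  have hval := fieldAut_val D φ σ hσ
  have hpow := fieldAut_pow_val D φ σ hval
  have h0 : 0 < D.nroots := by
    simp only [List.mem_cons, List.not_mem_nil, or_false] at hD3
    rcases hD3 with rfl | rfl | rfl <;> decide
  have hord : orderOf σ = orderOf φ := by
    rw [orderOf_eq_orderOf_iff]
    intro n
    constructor
    · intro hn
      apply MulEquiv.ext
      intro g
      apply Subtype.ext
      apply Units.ext
      ext i j
      rw [hpow n g i j, hn]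
      rfl
    · intro hn
      apply RingEquiv.ext
      intro t
      obtain ⟨g, hg⟩ := exists_xGL (F := F) D hD 0 h0 t
      have hgG : g ∈ D.group F := mem_group_of_val_word D hD' g [(0, t)]
        (by rw [hg, wordMat_cons', wordMat_nil', Matrix.mul_one])
      have h1 : D.x F 0 t = (D.x F 0 t).map ((σ ^ n : RingAut F) : F →+* F) := by
        ext i j
        have h := hpow n ⟨g, hgG⟩ i j
        rw [hn] at h
        rw [Matrix.map_apply, ← hg]
        exact h
      have h2 := x_inj D hD 0 h0 _ _ (h1.trans (x_map ((σ ^ n : RingAut F) : F →+* F) D 0 t))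
      exact h2.symm
  obtain ⟨F₀, iF, iFt, ι, hcard, hfix⟩ := exists_fixed_field σ
  refine ⟨F₀, iF, iFt, ?_, ?_⟩
  · rw [hcard, hord, ho]
  · let f : ↥(D.group F₀) →* ↥(D.group F) :=
      ((Matrix.GeneralLinearGroup.map ι).comp (D.group F₀).subtype).codRestrict (D.group F)
        (fun g => glMap_group ι D g g.2)
    have hf : Function.Injective f := by
      intro a b hab
      apply Subtype.ext
      apply glMap_injective ι
      exact congrArg Subtype.val hab
    have hrange : f.range = (MulEquiv.toMonoidHom φ).eqLocus (MonoidHom.id ↥(D.group F)) := by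
      ext g
      constructor
      · rintro ⟨g₀, rfl⟩
        show φ (f g₀) = f g₀
        apply Subtype.ext
        rw [hval]
        apply Units.ext
        ext i j
        rw [val_glMap, Matrix.map_apply]
        show σ (((Matrix.GeneralLinearGroup.map ι (g₀ : GL D.Idx F₀) : GL D.Idx F) :
          Matrix D.Idx D.Idx F) i j) = ((Matrix.GeneralLinearGroup.map ι (g₀ : GL D.Idx F₀) :
            GL D.Idx F) : Matrix D.Idx D.Idx F) i j
        rw [val_glMap, Matrix.map_apply]
        exact (hfix _).2 ⟨_, rfl⟩
      · intro hg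
        have hg' : φ g = g := hg
        have h1 : Matrix.GeneralLinearGroup.map (σ : F →+* F) (g : GL D.Idx F) = g := by
          rw [← hval, hg']
        obtain ⟨g₀, hg₀, e⟩ := group_fixed_mem D hD3 (σ : F →+* F) ι
          (fun x hx => (hfix x).1 hx) g g.2 h1
        exact ⟨⟨g₀, hg₀⟩, Subtype.ext e⟩
    exact ⟨((MonoidHom.ofInjective hf).trans (MulEquiv.subgroupCongr hrange)).symm⟩

end

end Cfsg.Agent.Lib.Helper25
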