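import Cfsg.Agent.Lib.Helper25.ChevBruhat

set_option autoImplicit false

namespace Cfsg.Agent.Lib.Helper25

open Cfsg.Lie Matrix
open Cfsg.Agent.Lib.Helper24

/-! ### Elements of `H` conjugate in the Chevalley group are conjugate in `N` -/

section

variable {F : Type*} [Field F]

/-- Two elements of `H` conjugate in the Chevalley group are conjugate under `N`. -/
theorem diagonal_conj_monomial (D : ChevalleyDatum)
    (hD : D ∈ [chevG2, chevB2, chevD4, chevF4, chevE6, chevE7, chevE8])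
    (h₁ h₂ g : GL D.Idx F) (h1 : h₁ ∈ D.diagonalSubgroup F) (h2 : h₂ ∈ D.diagonalSubgroup F)
    (hg : g ∈ D.group F) (hc : g * h₁ * g⁻¹ = h₂) :
    ∃ n ∈ D.monomialSubgroup F, n * h₁ * n⁻¹ = h₂ := by
  have hD' : D ∈ chevList := hD
  have hHB : D.diagonalSubgroup F ≤ D.borelSubgroup F := le_sup_right
  obtain ⟨b, hb, n, hn, u, hu, rfl⟩ := bruhat_exists D hD g hg
  have hc' : b * n * u * h₁ = h₂ * (b * n * u) := by
    rw [← hc]
    group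
  -- `h₁⁻¹ u h₁` lies in the same `U_w⁻`
  obtain ⟨d, hd, hval⟩ := diagonalSubgroup_le_gradedTorus D hD' (inv_mem h1)
  have hu₁ : h₁⁻¹ * u * h₁⁻¹⁻¹ ∈ Subgroup.closure {x : GL D.Idx F | ∃ (r : ℕ) (t : F),
      D.IsPosRoot r ∧ (D.rootSubgroup F r).map (MulAut.conj n).toMonoidHom ≤ D.negUnipotent F ∧
      (x : Matrix D.Idx D.Idx F) = D.x F r t} := by
    apply conj_closure _ h₁⁻¹ _ u hu
    rintro x ⟨r, t, hr, hmap, hx⟩
    apply Subgroup.subset_closure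
    refine ⟨r, d r * t, hr, hmap, ?_⟩
    rw [Units.val_mul, Units.val_mul, hx, hval, torus_mul_x D d hd r hr.1, ← hval,
      Matrix.mul_assoc, ← Units.val_mul, mul_inv_cancel, Units.val_one, Matrix.mul_one]
  rw [inv_inv] at hu₁
  have hnH : n * h₁ * n⁻¹ ∈ D.diagonalSubgroup F :=
    ((Subgroup.mem_set_normalizer_iff.1 (monomial_le_normalizer_diagonal D hD' hn)) h₁).1 h1
  have e : b * (n * h₁ * n⁻¹) * n * (h₁⁻¹ * u * h₁) = h₂ * b * n * u := by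
    have : b * (n * h₁ * n⁻¹) * n * (h₁⁻¹ * u * h₁) = b * n * u * h₁ := by group
    rw [this, hc']
    group
  have huniq := (bruhat_unique D hD (b * (n * h₁ * n⁻¹)) (h₂ * b) n n (h₁⁻¹ * u * h₁) u
    (mul_mem hb (hHB hnH)) (mul_mem (hHB h2) hb) hn hn hu₁ hu e).2 rfl
  have e2 : b * (n * h₁ * n⁻¹) = h₂ * b := huniq.1
  -- `b = u₀ h₀`
  have hHU : D.diagonalSubgroup F ≤ Subgroup.normalizer (D.posUnipotent F : Set (GL D.Idx F)) :=
    diagonal_le_normalizer_rootGen D hD' D.IsPosRoot (fun r hr => hr.1)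
  obtain ⟨u₀, hu₀, h₀, hh₀, rfl⟩ := mem_sup_of_le_normalizer _ _ hHU b hb
  have hz1 : (h₂ * u₀ * h₂⁻¹)⁻¹ * u₀ ∈ D.posUnipotent F :=
    mul_mem (inv_mem (((Subgroup.mem_set_normalizer_iff.1 (hHU h2)) u₀).1 hu₀)) hu₀
  have e3 : u₀⁻¹ * h₂⁻¹ * u₀ = h₀ * (n * h₁ * n⁻¹)⁻¹ * h₀⁻¹ := by
    have e4 : h₂ = u₀ * h₀ * (n * h₁ * n⁻¹) * (u₀ * h₀)⁻¹ := by
      rw [e2]
      group
    rw [e4]
    group
  have hz2 : (h₂ * u₀ * h₂⁻¹)⁻¹ * u₀ = h₂ * h₀ * (h₀ * (n * h₁ * n⁻¹))⁻¹ := by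
    have e5 : (h₂ * u₀ * h₂⁻¹)⁻¹ * u₀ = h₂ * (u₀⁻¹ * h₂⁻¹ * u₀) := by group
    rw [e5, e3]
    group
  have hz3 : (h₂ * u₀ * h₂⁻¹)⁻¹ * u₀ ∈ D.posUnipotent F ⊓ D.diagonalSubgroup F := by
    refine Subgroup.mem_inf.2 ⟨hz1, ?_⟩
    rw [hz2]
    exact mul_mem (mul_mem h2 hh₀) (inv_mem (mul_mem hh₀ hnH))
  rw [posUnipotent_inf_diagonal D hD', Subgroup.mem_bot, hz2, mul_inv_eq_one] at hz3
  refine ⟨h₀ * n, mul_mem ?_ hn, ?_⟩
  · unfold ChevalleyDatum.monomialSubgroup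
    exact Subgroup.mem_sup_left hh₀
  · have : h₀ * n * h₁ * (h₀ * n)⁻¹ = h₀ * (n * h₁ * n⁻¹) * h₀⁻¹ := by group
    rw [this, ← hz3]
    group

end

end Cfsg.Agent.Lib.Helper25
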