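import Cfsg.Agent.Lib.Helper25.CoxChain

set_option autoImplicit false

namespace Cfsg.Agent.Lib.Helper25

/-- The word of the `d`-th power of the Coxeter element `s₀ s₁ ⋯ s_{l-1}`. -/
def coxWord (l d : ℕ) : List ℕ := (List.replicate d (List.range l)).flatten

theorem coxWord_lt (l d : ℕ) : ∀ g ∈ coxWord l d, g < l := by
  intro g hg
  unfold coxWord at hg
  simp only [List.mem_flatten, List.mem_replicate] at hg
  obtain ⟨w, ⟨_, rfl⟩, hg⟩ := hg
  simpa using hg

/-- The vector `(1, …, 1)` of length `l`. -/
def rhoL (l : ℕ) : List ℤ := List.replicate l 1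

/-- The check that the `h`-th power of the Coxeter element fixes all unit vectors. -/
def coxOneOK (cart : List (List ℤ)) (l h : ℕ) : Bool :=
  (List.range l).all fun i =>
    decide ((coxWord l h).foldl (fun v j => reflL cart l j v) (unitL l i) = unitL l i)

/-- The check that no smaller positive power of the Coxeter element fixes `(1, …, 1)`. -/
def coxNeOK (cart : List (List ℤ)) (l h : ℕ) : Bool :=
  (List.range h).all fun d => decide (d = 0) ||
    differ l ((coxWord l d).foldl (fun v j => reflL cart l j v) (rhoL l)) (rhoL l)

theorem coxeter_order {l : ℕ} (M : CoxeterMatrix (Fin l)) (ML : List (List ℕ)) (cart : List (List ℤ))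
    (levels : List LevelData) (hlen : levels.length = l)
    (hM : ∀ i j : Fin l, M i j = tbl ML i j)
    (hrelOK' : ((List.range l).all fun i => (List.range l).all fun j =>
      relOK (AF cart l) (tbl ML i j) i j) = true)
    (hchain : chainOK ML cart l 0 levels = true)
    (h : ℕ) (hpos : 0 < h) (hone : coxOneOK cart l h = true) (hne : coxNeOK cart l h = true) :
    orderOf ((List.finRange l).map M.simple).prod = h := by
  obtain ⟨φ, hφ, hA, _, htriv⟩ := coxeter_main M ML cart levels hlen hM hrelOK' hchain
  rw [coxeter_prod_eq, orderOf_eq_iff hpos]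
  constructor
  · rw [← wprod_replicate]
    apply htriv
    intro i hi
    have h1 := coxeter_act_word M cart φ hφ hA (coxWord l h) (coxWord_lt l h) (unitL l i)
      (length_unitL l i)
    simp only [coxOneOK, List.all_eq_true, List.mem_range, decide_eq_true_eq] at hone
    rw [hone i hi, toF_unitL l i hi] at h1
    have h2 : (φ (wprod (sOf M) (coxWord l h))) (unitF i) = unitF i := by
      rw [Equiv.Perm.inv_eq_iff_eq] at h1
      exact h1.symm
    exact h2
  · intro d hd hd0 hcontra
    rw [← wprod_replicate] at hcontra
    have h1 := coxeter_act_word M cart φ hφ hA (coxWord l d) (coxWord_lt l d) (rhoL l)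
      (by simp [rhoL])
    have h3 : wprod (sOf M) (coxWord l d) = 1 := hcontra
    rw [h3, map_one, inv_one, Equiv.Perm.one_apply] at h1
    simp only [coxNeOK, List.all_eq_true, List.mem_range, Bool.or_eq_true, decide_eq_true_eq] at hne
    rcases hne d hd with h4 | h4
    · omega
    · exact differ_sound l _ _ h4 h1.symm

end Cfsg.Agent.Lib.Helper25
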