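import Mathlib
import Cfsg.Agent.Lib.Helper24.ChevSL2

/-!
# Rank one conjugations in a Chevalley group

For a root `p` and a matrix `M` exchanging the root elements of `p` and `-p` up to inverse
scalars, the matrix `h_p(ν) M` is conjugate to `M` by an element of `⟨X_p, X_{-p}⟩`, over a
finite field of odd characteristic.  For a matrix `M` negating the parameters of the root
elements of `p` and `-p`, the matrix `M n_p(1/2)` is conjugate to `M`.
-/

set_option autoImplicit false

namespace Cfsg.Agent.Lib.Helper25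

open Cfsg Cfsg.Lie Matrix
open Cfsg.Agent.Lib.Helper24

section

variable {F : Type*} [Field F]

/-- A word in the root elements of `p` (`true`) and `-p` (`false`). -/
def xw (F : Type*) [Field F] (D : ChevalleyDatum) (p : ℕ) (w : List (Bool × F)) :
    Matrix D.Idx D.Idx F :=
  (w.map fun e => D.x F (if e.1 then p else D.neg p) e.2).prod

/-- Exchange `p` and `-p` in a word, scaling the parameters. -/
def xwFlip (k₁ k₂ : F) (w : List (Bool × F)) : List (Bool × F) :=
  w.map fun e => (!e.1, if e.1 then k₁ * e.2 else k₂ * e.2)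

theorem xw_nil (D : ChevalleyDatum) (p : ℕ) : xw F D p [] = 1 := rfl

theorem xw_cons (D : ChevalleyDatum) (p : ℕ) (e : Bool × F) (w : List (Bool × F)) :
    xw F D p (e :: w) = D.x F (if e.1 then p else D.neg p) e.2 * xw F D p w := by
  simp [xw]

theorem xw_append (D : ChevalleyDatum) (p : ℕ) (w w' : List (Bool × F)) :
    xw F D p (w ++ w') = xw F D p w * xw F D p w' := by
  simp [xw]

theorem xw_flip (D : ChevalleyDatum) (p : ℕ) (M : Matrix D.Idx D.Idx F) (k₁ k₂ : F)
    (h1 : ∀ t, M * D.x F p t = D.x F (D.neg p) (k₁ * t) * M)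
    (h2 : ∀ t, M * D.x F (D.neg p) t = D.x F p (k₂ * t) * M) (w : List (Bool × F)) :
    M * xw F D p w = xw F D p (xwFlip k₁ k₂ w) * M := by
  induction w with
  | nil => simp [xw, xwFlip]
  | cons e w ih =>
    obtain ⟨b, t⟩ := e
    have e1 : xwFlip k₁ k₂ ((b, t) :: w) =
        (!b, if b then k₁ * t else k₂ * t) :: xwFlip k₁ k₂ w := rfl
    rw [e1, xw_cons, xw_cons, ← Matrix.mul_assoc]
    cases b
    · simp only [Bool.false_eq_true, if_false, Bool.not_false, if_true]
      rw [h2, Matrix.mul_assoc, ih, Matrix.mul_assoc]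
    · simp only [if_true, Bool.not_true, Bool.false_eq_true, if_false]
      rw [h1, Matrix.mul_assoc, ih, Matrix.mul_assoc]

/-- The upper unitriangular element of `SL₂`. -/
def sU (t : F) : Matrix.SpecialLinearGroup (Fin 2) F :=
  ⟨!![1, t; 0, 1], by simp [Matrix.det_fin_two_of]⟩

/-- The lower unitriangular element of `SL₂`. -/
def sL (t : F) : Matrix.SpecialLinearGroup (Fin 2) F :=
  ⟨!![1, 0; t, 1], by simp [Matrix.det_fin_two_of]⟩

/-- A word in the unitriangular elements of `SL₂`. -/
def sw (w : List (Bool × F)) : Matrix.SpecialLinearGroup (Fin 2) F :=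
  (w.map fun e => if e.1 then sU e.2 else sL e.2).prod

theorem sw_cons (e : Bool × F) (w : List (Bool × F)) :
    sw (e :: w) = (if e.1 then sU e.2 else sL e.2) * sw w := by
  simp [sw]

theorem sw_append (w w' : List (Bool × F)) : sw (w ++ w') = sw w * sw w' := by
  simp [sw]

theorem phi_sw (D : ChevalleyDatum) (p : ℕ)
    (φ : Matrix.SpecialLinearGroup (Fin 2) F →* GL D.Idx F)
    (hφ : ∀ (g : Matrix.SpecialLinearGroup (Fin 2) F) (t : F),
      ((g : Matrix (Fin 2) (Fin 2) F) = !![1, t; 0, 1] →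
        ((φ g : GL D.Idx F) : Matrix D.Idx D.Idx F) = D.x F p t) ∧
      ((g : Matrix (Fin 2) (Fin 2) F) = !![1, 0; t, 1] →
        ((φ g : GL D.Idx F) : Matrix D.Idx D.Idx F) = D.x F (D.neg p) t))
    (w : List (Bool × F)) :
    ((φ (sw w) : GL D.Idx F) : Matrix D.Idx D.Idx F) = xw F D p w := by
  induction w with
  | nil => simp [sw, xw]
  | cons e w ih =>
    obtain ⟨b, t⟩ := e
    rw [sw_cons, map_mul, Units.val_mul, ih, xw_cons]
    cases b
    · simp only [Bool.false_eq_true, if_false]
      rw [(hφ (sL t) t).2 rfl]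
    · simp only [if_true]
      rw [(hφ (sU t) t).1 rfl]

/-- Flipping a word conjugates its matrix by an antidiagonal matrix. -/
theorem sw_flip_val (k₁ k₂ : F) (hk : k₁ * k₂ = 1) (w : List (Bool × F)) :
    ((sw (xwFlip k₁ k₂ w) : Matrix.SpecialLinearGroup (Fin 2) F) : Matrix (Fin 2) (Fin 2) F) =
      !![0, 1; k₁, 0] * ((sw w : Matrix.SpecialLinearGroup (Fin 2) F) : Matrix (Fin 2) (Fin 2) F) *
        !![0, k₂; 1, 0] := by
  have hT : (!![0, k₂; 1, 0] : Matrix (Fin 2) (Fin 2) F) * !![0, 1; k₁, 0] = 1 := by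
    ext i j
    fin_cases i <;> fin_cases j <;> simp [Matrix.mul_apply, Fin.sum_univ_two, mul_comm k₂ k₁, hk]
  induction w with
  | nil =>
    have : xwFlip k₁ k₂ ([] : List (Bool × F)) = [] := rfl
    rw [this]
    ext i j
    fin_cases i <;> fin_cases j <;> simp [sw, Matrix.mul_apply, Fin.sum_univ_two, hk]
  | cons e w ih =>
    obtain ⟨b, t⟩ := e
    have e1 : xwFlip k₁ k₂ ((b, t) :: w) =
        (!b, if b then k₁ * t else k₂ * t) :: xwFlip k₁ k₂ w := rfl
    rw [e1, sw_cons, sw_cons, Matrix.SpecialLinearGroup.coe_mul, Matrix.SpecialLinearGroup.coe_mul,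
      ih]
    have key : ∀ X : Matrix (Fin 2) (Fin 2) F, ∀ Y Z : Matrix (Fin 2) (Fin 2) F,
        Y = !![0, 1; k₁, 0] * Z * !![0, k₂; 1, 0] →
        Y * (!![0, 1; k₁, 0] * X * !![0, k₂; 1, 0]) =
          !![0, 1; k₁, 0] * (Z * X) * !![0, k₂; 1, 0] := by
      intro X Y Z hY
      rw [hY]
      calc !![0, 1; k₁, 0] * Z * !![0, k₂; 1, 0] * (!![0, 1; k₁, 0] * X * !![0, k₂; 1, 0])
          = !![0, 1; k₁, 0] * Z * (!![0, k₂; 1, 0] * !![0, 1; k₁, 0]) * X * !![0, k₂; 1, 0] := by
            simp only [Matrix.mul_assoc]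
        _ = !![0, 1; k₁, 0] * (Z * X) * !![0, k₂; 1, 0] := by
            rw [hT, Matrix.mul_one, Matrix.mul_assoc !![0, 1; k₁, 0]]
    apply key
    cases b
    · simp only [Bool.not_false, if_true, Bool.false_eq_true, if_false]
      ext i j
      fin_cases i <;> fin_cases j <;>
        simp [sU, sL, Matrix.mul_apply, Fin.sum_univ_two, hk, mul_comm]
    · simp only [Bool.not_true, Bool.false_eq_true, if_false, if_true]
      ext i j
      fin_cases i <;> fin_cases j <;>
        simp [sU, sL, Matrix.mul_apply, Fin.sum_univ_two, hk, mul_comm]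

end

end Cfsg.Agent.Lib.Helper25
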