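import Mathlib
import Cfsg.Agent.Lib.Helper25.InvOddRk1

/-!
# Rank one conjugations in a Chevalley group: the two conjugation lemmas
-/

set_option autoImplicit false

namespace Cfsg.Agent.Lib.Helper25

open Cfsg Cfsg.Lie Matrix Polynomial
open Cfsg.Agent.Lib.Helper24

section

variable {F : Type*} [Field F]

theorem sU_val (t : F) : ((sU t : Matrix.SpecialLinearGroup (Fin 2) F) : Matrix (Fin 2) (Fin 2) F) =
    !![1, t; 0, 1] := rfl

theorem sL_val (t : F) : ((sL t : Matrix.SpecialLinearGroup (Fin 2) F) : Matrix (Fin 2) (Fin 2) F) =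
    !![1, 0; t, 1] := rfl

/-- Every element of `SL₂` is a word in the unitriangular elements. -/
theorem exists_sw (A : Matrix.SpecialLinearGroup (Fin 2) F) : ∃ w : List (Bool × F), sw w = A := by
  have hdet : (A : Matrix (Fin 2) (Fin 2) F) 0 0 * (A : Matrix (Fin 2) (Fin 2) F) 1 1 -
      (A : Matrix (Fin 2) (Fin 2) F) 0 1 * (A : Matrix (Fin 2) (Fin 2) F) 1 0 = 1 := by
    have := A.2
    rw [Matrix.det_fin_two] at this
    exact this
  generalize ha : (A : Matrix (Fin 2) (Fin 2) F) 0 0 = a at hdet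
  generalize hb : (A : Matrix (Fin 2) (Fin 2) F) 0 1 = b at hdet
  generalize hc : (A : Matrix (Fin 2) (Fin 2) F) 1 0 = c at hdet
  generalize hd : (A : Matrix (Fin 2) (Fin 2) F) 1 1 = d at hdet
  by_cases hc0 : c = 0
  · have had : a * d = 1 := by
      rw [hc0] at hdet
      linear_combination hdet
    have ha0 : a ≠ 0 := by
      rintro rfl
      simp at had
    refine ⟨[(true, a), (false, -a⁻¹), (true, a), (true, -1), (false, 1), (true, -1),
      (true, a⁻¹ * b)], ?_⟩
    apply Subtype.ext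
    simp only [sw, List.map_cons, List.map_nil, List.prod_cons, List.prod_nil, if_true,
      Bool.false_eq_true, if_false, mul_one, Matrix.SpecialLinearGroup.coe_mul, sU_val, sL_val]
    ext i j
    fin_cases i <;> fin_cases j
    · simp [Matrix.mul_apply, Fin.sum_univ_two]
      rw [ha]
      field_simp
      ring
    · simp [Matrix.mul_apply, Fin.sum_univ_two]
      rw [hb]
      field_simp
      ring
    · simp [Matrix.mul_apply, Fin.sum_univ_two]
      rw [hc, hc0]
      field_simp
      ring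
    · simp [Matrix.mul_apply, Fin.sum_univ_two]
      rw [hd]
      field_simp
      linear_combination -had
  · refine ⟨[(true, (a - 1) / c), (false, c), (true, (d - 1) / c)], ?_⟩
    apply Subtype.ext
    simp only [sw, List.map_cons, List.map_nil, List.prod_cons, List.prod_nil, if_true,
      Bool.false_eq_true, if_false, mul_one, Matrix.SpecialLinearGroup.coe_mul, sU_val, sL_val]
    ext i j
    fin_cases i <;> fin_cases j
    · simp [Matrix.mul_apply, Fin.sum_univ_two]
      rw [ha]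
      field_simp
      ring
    · simp [Matrix.mul_apply, Fin.sum_univ_two]
      rw [hb]
      field_simp
      linear_combination hdet
    · simp [Matrix.mul_apply, Fin.sum_univ_two]
      rw [hc]
    · simp [Matrix.mul_apply, Fin.sum_univ_two]
      rw [hd]
      field_simp
      ring

/-- `h_p(ν)` as a word in the root elements of `p` and `-p`. -/
theorem hMat_eq_xw (D : ChevalleyDatum) (p : ℕ) (ν : F) :
    D.hMat F p ν = xw F D p [(true, ν), (false, -ν⁻¹), (true, ν), (true, -1), (false, 1),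
      (true, -1)] := by
  rw [hMat_eq_nMat_mul, nMat_eq, nMat_eq]
  simp only [xw, List.map_cons, List.map_nil, List.prod_cons, List.prod_nil, if_true,
    Bool.false_eq_true, if_false, mul_one, Matrix.mul_assoc]
  have e : (-(-1 : F)⁻¹) = 1 := by simp
  rw [e]

/-- If `M` exchanges the root elements of `p` and `-p` up to inverse scalars then `h_p(ν) M` is
conjugate to `M` under `⟨X_p, X_{-p}⟩`. -/
theorem rank1_w0 [Fintype F] (hF : Fintype.card F % 2 = 1) (D : ChevalleyDatum) (hD : D ∈ chevList)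
    (p : ℕ) (hp : p < D.nroots) (M : Matrix D.Idx D.Idx F) (k₁ k₂ : F) (hk : k₁ * k₂ = 1)
    (h1 : ∀ t, M * D.x F p t = D.x F (D.neg p) (k₁ * t) * M)
    (h2 : ∀ t, M * D.x F (D.neg p) t = D.x F p (k₂ * t) * M) (ν : F) (hν : ν ≠ 0) :
    ∃ B : GL D.Idx F, B ∈ D.rootSubgroup F p ⊔ D.rootSubgroup F (D.neg p) ∧
      (B : Matrix D.Idx D.Idx F) * M = D.hMat F p ν * M * (B : Matrix D.Idx D.Idx F) := by
  obtain ⟨φ, hrange, hφ⟩ := exists_sl2_hom (F := F) D hD p hp
  have hk2 : k₂ ≠ 0 := by
    rintro rfl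
    simp at hk
  obtain ⟨d, c, hdc⟩ := FiniteField.exists_root_sum_quadratic (R := F)
    (f := X ^ 2 - C ν⁻¹) (g := C (-k₂) * X ^ 2)
    (degree_X_pow_sub_C (by norm_num) _) (degree_C_mul_X_pow 2 (neg_ne_zero.2 hk2)) hF
  simp only [eval_sub, eval_pow, eval_X, eval_C, eval_mul] at hdc
  have hcon : ν * d * d - ν * k₂ * c * c = 1 := by
    have : ν * (d ^ 2 - ν⁻¹ + -k₂ * c ^ 2) = 0 := by rw [hdc, mul_zero]
    have h3 : ν * ν⁻¹ = 1 := mul_inv_cancel₀ hν
    linear_combination this + h3
  let A : Matrix.SpecialLinearGroup (Fin 2) F :=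
    ⟨!![ν * d, ν * k₂ * c; c, d], by rw [Matrix.det_fin_two_of]; linear_combination hcon⟩
  obtain ⟨w, hw⟩ := exists_sw A
  refine ⟨φ A, ?_, ?_⟩
  · rw [← hrange]
    exact ⟨A, rfl⟩
  · have key : sw w = sw ([(true, ν), (false, -ν⁻¹), (true, ν), (true, -1), (false, 1),
        (true, -1)] ++ xwFlip k₁ k₂ w) := by
      apply Subtype.ext
      rw [sw_append, Matrix.SpecialLinearGroup.coe_mul, sw_flip_val k₁ k₂ hk w, hw]
      have hA : (A : Matrix (Fin 2) (Fin 2) F) = !![ν * d, ν * k₂ * c; c, d] := rfl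
      rw [hA]
      simp only [sw, List.map_cons, List.map_nil, List.prod_cons, List.prod_nil, if_true,
        Bool.false_eq_true, if_false, mul_one, Matrix.SpecialLinearGroup.coe_mul, sU_val, sL_val]
      ext i j
      fin_cases i <;> fin_cases j
      · simp [Matrix.mul_apply, Fin.sum_univ_two]
        field_simp
        ring
      · simp [Matrix.mul_apply, Fin.sum_univ_two]
        field_simp
        ring
      · simp [Matrix.mul_apply, Fin.sum_univ_two]
        field_simp
        linear_combination (-c) * hk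
      · simp [Matrix.mul_apply, Fin.sum_univ_two]
        field_simp
        linear_combination (-d) * hk
    rw [← hw, phi_sw D p φ hφ w, Matrix.mul_assoc, xw_flip D p M k₁ k₂ h1 h2 w,
      ← Matrix.mul_assoc, hMat_eq_xw, ← xw_append, ← phi_sw D p φ hφ, ← phi_sw D p φ hφ, ← key]

/-- If `M` negates the parameters of the root elements of `p` and `-p` then `M n_p(1/2)` is
conjugate to `M` by `x_p(-1/2) x_{-p}(1)`. -/
theorem rank1_flip (D : ChevalleyDatum) (hD : D ∈ chevList) (p : ℕ) (hp : p < D.nroots)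
    (hp' : D.neg p < D.nroots) (h2 : (2 : F) ≠ 0) (M : Matrix D.Idx D.Idx F)
    (h1 : ∀ t, M * D.x F p t = D.x F p (-t) * M)
    (h1' : ∀ t, M * D.x F (D.neg p) t = D.x F (D.neg p) (-t) * M) :
    (D.x F p (-(2 : F)⁻¹) * D.x F (D.neg p) 1) * M =
      M * D.nMat F p (2 : F)⁻¹ * (D.x F p (-(2 : F)⁻¹) * D.x F (D.neg p) 1) := by
  have ea : D.x F (D.neg p) 1 * M = M * D.x F (D.neg p) (-1) := by
    rw [h1' (-1), neg_neg]
  have eb : D.x F p (-(2 : F)⁻¹) * M = M * D.x F p (2 : F)⁻¹ := by
    rw [h1 (2 : F)⁻¹]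
  have e1 : (D.x F p (-(2 : F)⁻¹) * D.x F (D.neg p) 1) * M =
      M * (D.x F p (2 : F)⁻¹ * D.x F (D.neg p) (-1)) := by
    rw [Matrix.mul_assoc, ea, ← Matrix.mul_assoc, eb, Matrix.mul_assoc]
  have e2 : D.nMat F p (2 : F)⁻¹ * (D.x F p (-(2 : F)⁻¹) * D.x F (D.neg p) 1) =
      D.x F p (2 : F)⁻¹ * D.x F (D.neg p) (-1) := by
    rw [nMat_eq]
    have e3 : D.x F p (2 : F)⁻¹ * (D.x F p (-(2 : F)⁻¹) * D.x F (D.neg p) 1) =
        D.x F (D.neg p) 1 := by
      rw [← Matrix.mul_assoc, x_add D hD p hp, add_neg_cancel, Helper24.x_zero, Matrix.one_mul]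
    rw [Matrix.mul_assoc, Matrix.mul_assoc, e3, x_add D hD (D.neg p) hp']
    congr 2
    rw [inv_inv]
    ring
  rw [e1, Matrix.mul_assoc, e2]

end

end Cfsg.Agent.Lib.Helper25
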