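import Mathlib
import Cfsg.Agent.Lib.Helper25.InvOddRk1b
import Cfsg.Agent.Lib.Helper29.InvCRcore
import Cfsg.Agent.Lib.Helper29.InvCF
import Cfsg.Agent.Lib.Helper25.ChevFix

/-!
# Involutions of `G₂(q)`, `q` odd: the elements of `N` over the longest element

Every element `h n₀` with `h` in the diagonal subgroup and `n₀` the standard representative of
the longest element of the Weyl group is conjugate to `n₀`; an involution of `N` over one of the
two reflections commuting with a fundamental reflection is conjugate to an element over the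
longest element.
-/

set_option autoImplicit false

namespace Cfsg.Agent.Lib.Helper25

open Cfsg Cfsg.Lie Matrix
open Cfsg.Agent.Lib.Helper8 Cfsg.Agent.Lib.Helper24

section

variable {F : Type*} [Field F]

theorem g2_mem : chevG2 ∈ [chevG2, chevB2, chevD4, chevF4, chevE6, chevE7, chevE8] := by simp

theorem g2_mem' : chevG2 ∈ chevList := g2_mem

/-- The action of `torus d * n_v` on the root elements. -/
theorem tn_act (D : ChevalleyDatum)
    (hD : D ∈ [chevG2, chevB2, chevD4, chevF4, chevE6, chevE7, chevE8]) (v : List ℕ)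
    (hv : ∀ i ∈ v, i < D.rank) (d : ℕ → F) (hd : MulGraded D d) (s : ℕ) (hs : s < D.nroots)
    (t : F) :
    torus F D d * nWordMat F D v * D.x F s t =
      D.x F (wPi D v s) (d (wPi D v s) * (((wEta D v s : ℤ) : F) * t)) *
        (torus F D d * nWordMat F D v) := by
  rw [Matrix.mul_assoc, nWordMat_conj D hD v hv s hs t, ← Matrix.mul_assoc,
    torus_mul_x D d hd _ (wPi_lt D hD v hv s hs), Matrix.mul_assoc]

/-- Conjugacy of matrices under the Chevalley group. -/
def ConjM (D : ChevalleyDatum) (A B : Matrix D.Idx D.Idx F) : Prop :=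
  ∃ g : GL D.Idx F, g ∈ D.group F ∧ (g : Matrix D.Idx D.Idx F) * A = B * (g : Matrix D.Idx D.Idx F)

theorem ConjM.trans {D : ChevalleyDatum} {A B C : Matrix D.Idx D.Idx F} (h1 : ConjM D A B)
    (h2 : ConjM D B C) : ConjM D A C := by
  obtain ⟨g, hg, e⟩ := h1
  obtain ⟨g', hg', e'⟩ := h2
  refine ⟨g' * g, mul_mem hg' hg, ?_⟩
  rw [Units.val_mul, Matrix.mul_assoc, e, ← Matrix.mul_assoc, e', Matrix.mul_assoc]

theorem ConjM.symm {D : ChevalleyDatum} {A B : Matrix D.Idx D.Idx F} (h : ConjM D A B) :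
    ConjM D B A := by
  obtain ⟨g, hg, e⟩ := h
  refine ⟨g⁻¹, inv_mem hg, ?_⟩
  calc ((g⁻¹ : GL D.Idx F) : Matrix D.Idx D.Idx F) * B
      = ((g⁻¹ : GL D.Idx F) : Matrix D.Idx D.Idx F) * B *
          ((g : Matrix D.Idx D.Idx F) * ((g⁻¹ : GL D.Idx F) : Matrix D.Idx D.Idx F)) := by
        rw [Units.mul_inv, mul_one]
    _ = ((g⁻¹ : GL D.Idx F) : Matrix D.Idx D.Idx F) * (B * (g : Matrix D.Idx D.Idx F)) *
          ((g⁻¹ : GL D.Idx F) : Matrix D.Idx D.Idx F) := by
        simp only [mul_assoc]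
    _ = ((g⁻¹ : GL D.Idx F) : Matrix D.Idx D.Idx F) * ((g : Matrix D.Idx D.Idx F) * A) *
          ((g⁻¹ : GL D.Idx F) : Matrix D.Idx D.Idx F) := by
        rw [e]
    _ = (((g⁻¹ : GL D.Idx F) : Matrix D.Idx D.Idx F) * (g : Matrix D.Idx D.Idx F)) * A *
          ((g⁻¹ : GL D.Idx F) : Matrix D.Idx D.Idx F) := by
        simp only [mul_assoc]
    _ = A * ((g⁻¹ : GL D.Idx F) : Matrix D.Idx D.Idx F) := by
        rw [Units.inv_mul, one_mul]

theorem rootSub_le_group (D : ChevalleyDatum) (hD : D ∈ chevList) (p : ℕ) :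
    D.rootSubgroup F p ⊔ D.rootSubgroup F (D.neg p) ≤ D.group F := by
  apply sup_le
  · unfold ChevalleyDatum.rootSubgroup
    rw [Subgroup.closure_le]
    rintro g ⟨t, hg⟩
    exact mem_group_of_val_x D hD g p t hg
  · unfold ChevalleyDatum.rootSubgroup
    rw [Subgroup.closure_le]
    rintro g ⟨t, hg⟩
    exact mem_group_of_val_x D hD g (D.neg p) t hg

/-! ### The longest element -/

/-- The standard representative of the longest element exchanges the root elements of the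
fundamental roots and their negatives, with sign `-1`. -/
theorem g2_w0_act (s : ℕ) (hs : s = 7 ∨ s = 4 ∨ s = 6 ∨ s = 5) (t : F) :
    nWordMat F chevG2 [0, 1, 0, 1, 0, 1] * chevG2.x F s t =
      chevG2.x F (chevG2.neg s) (-t) * nWordMat F chevG2 [0, 1, 0, 1, 0, 1] := by
  have hv : ∀ i ∈ [0, 1, 0, 1, 0, 1], i < chevG2.rank := by decide
  have hlt : s < chevG2.nroots := by
    rcases hs with rfl | rfl | rfl | rfl <;> decide
  have h := nWordMat_conj (F := F) chevG2 g2_mem [0, 1, 0, 1, 0, 1] hv s hlt t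
  have e1 : wPi chevG2 [0, 1, 0, 1, 0, 1] s = chevG2.neg s := by
    rcases hs with rfl | rfl | rfl | rfl <;> decide +kernel
  have e2 : wEta chevG2 [0, 1, 0, 1, 0, 1] s = -1 := by
    rcases hs with rfl | rfl | rfl | rfl <;> decide +kernel
  rw [e1, e2] at h
  rw [h]
  congr 2
  simp

/-- Every element `h n₀` is conjugate to `n₀`. -/
theorem g2_w0_conj [Fintype F] (hodd : Fintype.card F % 2 = 1) (h : GL chevG2.Idx F)
    (hh : h ∈ chevG2.diagonalSubgroup F) :
    ConjM chevG2 ((h : Matrix chevG2.Idx chevG2.Idx F) * nWordMat F chevG2 [0, 1, 0, 1, 0, 1])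
      (nWordMat F chevG2 [0, 1, 0, 1, 0, 1]) := by
  obtain ⟨c, hc, hval⟩ := diagonal_eq_prod_simple chevG2 g2_mem' h hh
  have hc0 : c 0 ≠ 0 := hc 0 (by decide)
  have hc1 : c 1 ≠ 0 := hc 1 (by decide)
  have hval' : (h : Matrix chevG2.Idx chevG2.Idx F) =
      chevG2.hMat F 7 (c 0) * chevG2.hMat F 6 (c 1) := by
    rw [hval]
    have e : (List.range chevG2.rank).flatMap (fun i => chevG2.hWord (chevG2.simple i) (c i)) =
        chevG2.hWord 7 (c 0) ++ chevG2.hWord 6 (c 1) := by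
      have hr : chevG2.rank = 2 := rfl
      rw [hr]
      have h7 : chevG2.simple 0 = 7 := by decide
      have h6 : chevG2.simple 1 = 6 := by decide
      simp [List.range_succ, h7, h6]
    rw [e, wordMat_append]
    rfl
  set N0 := nWordMat F chevG2 [0, 1, 0, 1, 0, 1] with hN0
  have n65 : chevG2.neg 6 = 5 := by decide
  have n56 : chevG2.neg 5 = 6 := by decide
  have n74 : chevG2.neg 7 = 4 := by decide
  have n47 : chevG2.neg 4 = 7 := by decide
  -- step 1: the root `6`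
  obtain ⟨B₁, hB₁, e₁⟩ := rank1_w0 hodd chevG2 g2_mem' 6 (by decide) N0 (-1) (-1) (by ring)
    (fun t => by rw [g2_w0_act 6 (by simp) t, neg_one_mul])
    (fun t => by rw [n65, g2_w0_act 5 (by simp) t, n56, neg_one_mul]) (c 1) hc1
  -- step 2: the root `7`
  have hW : W chevG2 6 4 + W chevG2 6 7 = 0 := by decide +kernel
  have a7 : ∀ t, chevG2.hMat F 6 (c 1) * N0 * chevG2.x F 7 t =
      chevG2.x F (chevG2.neg 7) (-(c 1) ^ W chevG2 6 4 * t) * (chevG2.hMat F 6 (c 1) * N0) := by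
    intro t
    rw [Matrix.mul_assoc, g2_w0_act 7 (by simp) t, n74, ← Matrix.mul_assoc,
      hMat_eq_torus chevG2 g2_mem' 6 (by decide) (c 1) hc1,
      torusW_mul_x chevG2 g2_mem' 6 (c 1) hc1 4 (by decide) (-t), Matrix.mul_assoc]
    congr 2
    ring
  have a4 : ∀ t, chevG2.hMat F 6 (c 1) * N0 * chevG2.x F (chevG2.neg 7) t =
      chevG2.x F 7 (-(c 1) ^ W chevG2 6 7 * t) * (chevG2.hMat F 6 (c 1) * N0) := by
    intro t
    rw [n74, Matrix.mul_assoc, g2_w0_act 4 (by simp) t, n47, ← Matrix.mul_assoc,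
      hMat_eq_torus chevG2 g2_mem' 6 (by decide) (c 1) hc1,
      torusW_mul_x chevG2 g2_mem' 6 (c 1) hc1 7 (by decide) (-t), Matrix.mul_assoc]
    congr 2
    ring
  have hk : -(c 1) ^ W chevG2 6 4 * -(c 1) ^ W chevG2 6 7 = 1 := by
    rw [neg_mul_neg, ← zpow_add₀ hc1, hW, zpow_zero]
  obtain ⟨B₂, hB₂, e₂⟩ := rank1_w0 hodd chevG2 g2_mem' 7 (by decide)
    (chevG2.hMat F 6 (c 1) * N0) _ _ hk a7 a4 (c 0) hc0
  have c1 : ConjM chevG2 N0 (chevG2.hMat F 6 (c 1) * N0) :=
    ⟨B₁, rootSub_le_group chevG2 g2_mem' 6 hB₁, e₁⟩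
  have c2 : ConjM chevG2 (chevG2.hMat F 6 (c 1) * N0)
      (chevG2.hMat F 7 (c 0) * (chevG2.hMat F 6 (c 1) * N0)) :=
    ⟨B₂, rootSub_le_group chevG2 g2_mem' 7 hB₂, e₂⟩
  have c3 := (c1.trans c2).symm
  rw [hval', Matrix.mul_assoc]
  exact c3

end

end Cfsg.Agent.Lib.Helper25
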