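import Mathlib
import Cfsg.Agent.Lib.Helper25.InvG2OddA

/-!
# Involutions of `G₂(q)`, `q` odd: the two reflections

An involution `torus d * n_v` over one of the two reflections of the Weyl group of type `G₂`
commuting with a fundamental reflection is conjugate to an element over the longest element.
-/

set_option autoImplicit false

namespace Cfsg.Agent.Lib.Helper25

open Cfsg Cfsg.Lie Matrix
open Cfsg.Agent.Lib.Helper8 Cfsg.Agent.Lib.Helper24

section

variable {F : Type*} [Field F]

/-- The reflection in the highest root. -/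
theorem g2_refl1 (h2F : (2 : F) ≠ 0) (d : ℕ → F) (hd : MulGraded chevG2 d)
    (hsq : (torus F chevG2 d * nWordMat F chevG2 [1, 0, 1, 0, 1]) *
      (torus F chevG2 d * nWordMat F chevG2 [1, 0, 1, 0, 1]) = 1)
    (hrel : d 1 * d 6 = d 4 ^ 3) :
    ConjM chevG2 (torus F chevG2 d * nWordMat F chevG2 [1, 0, 1, 0, 1])
      (torus F chevG2 d * chevG2.hMat F 7 (2 : F)⁻¹ * nWordMat F chevG2 [0, 1, 0, 1, 0, 1]) := by
  have hv : ∀ i ∈ [1, 0, 1, 0, 1], i < chevG2.rank := by decide
  have act : ∀ (s s' : ℕ) (η : ℤ), s < chevG2.nroots → wPi chevG2 [1, 0, 1, 0, 1] s = s' →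
      wEta chevG2 [1, 0, 1, 0, 1] s = η → ∀ t : F,
      torus F chevG2 d * nWordMat F chevG2 [1, 0, 1, 0, 1] * chevG2.x F s t =
        chevG2.x F s' (d s' * ((η : F) * t)) *
          (torus F chevG2 d * nWordMat F chevG2 [1, 0, 1, 0, 1]) := by
    intro s s' η hs e1 e2 t
    have := tn_act chevG2 g2_mem [1, 0, 1, 0, 1] hv d hd s hs t
    rw [e1, e2] at this
    exact this
  have a4 := act 4 4 1 (by decide) (by decide +kernel) (by decide +kernel)
  have a7 := act 7 7 1 (by decide) (by decide +kernel) (by decide +kernel)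
  have a6 := act 6 1 1 (by decide) (by decide +kernel) (by decide +kernel)
  have a1 := act 1 6 (-1) (by decide) (by decide +kernel) (by decide +kernel)
  generalize hM : torus F chevG2 d * nWordMat F chevG2 [1, 0, 1, 0, 1] = M at hsq a4 a7 a6 a1 ⊢
  have s6 : d 6 * d 1 = -1 := by
    have h : M * M * chevG2.x F 6 1 = chevG2.x F 6 1 := by rw [hsq, Matrix.one_mul]
    rw [Matrix.mul_assoc, a6, ← Matrix.mul_assoc, a1, Matrix.mul_assoc, hsq, Matrix.mul_one] at h
    have := Helper25.x_inj chevG2 g2_mem 6 (by decide) _ _ h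
    push_cast at this
    linear_combination -this
  have s4 : d 4 * d 4 = 1 := by
    have h : M * M * chevG2.x F 4 1 = chevG2.x F 4 1 := by rw [hsq, Matrix.one_mul]
    rw [Matrix.mul_assoc, a4, ← Matrix.mul_assoc, a4, Matrix.mul_assoc, hsq, Matrix.mul_one] at h
    have := Helper25.x_inj chevG2 g2_mem 4 (by decide) _ _ h
    push_cast at this
    linear_combination this
  have n74 : chevG2.neg 7 = 4 := by decide
  have hneg : d 4 * d 7 = 1 := by
    have := hd.neg 7 (by decide)
    rwa [n74] at this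
  rcases mul_self_eq_one_iff.1 s4 with h4 | h4
  · exfalso
    rw [h4, one_pow] at hrel
    apply h2F
    linear_combination s6 - hrel
  · have h7 : d 7 = -1 := by
      rw [h4] at hneg
      linear_combination -hneg
    have key := rank1_flip chevG2 g2_mem' 7 (by decide) (by decide) h2F M
      (fun t => by rw [a7 t, h7]; congr 2; push_cast; ring)
      (fun t => by rw [n74, a4 t, h4]; congr 2; push_cast; ring)
    refine ⟨xGL chevG2 g2_mem' 7 (-(2 : F)⁻¹) * xGL chevG2 g2_mem' (chevG2.neg 7) 1,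
      mul_mem (xGL_mem_group _ _ _ _) (xGL_mem_group _ _ _ _), ?_⟩
    rw [Units.val_mul, xGL_val, xGL_val, key]
    congr 1
    rw [← hM, Matrix.mul_assoc,
      nWordMat_mul_nMat chevG2 g2_mem [1, 0, 1, 0, 1] hv 7 (by decide)]
    have e1 : wPi chevG2 [1, 0, 1, 0, 1] 7 = 7 := by decide +kernel
    have e2 : wEta chevG2 [1, 0, 1, 0, 1] 7 = 1 := by decide +kernel
    rw [e1, e2, Int.cast_one, one_mul, Helper24.nMat_eq_hMat_mul chevG2 g2_mem' 7 (by decide)]
    have e3 : nWordMat F chevG2 [0, 1, 0, 1, 0, 1] =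
        chevG2.nMat F 7 1 * nWordMat F chevG2 [1, 0, 1, 0, 1] := by
      rw [nWordMat_cons]
      rfl
    rw [e3]
    simp only [Matrix.mul_assoc]

/-- The reflection in the highest short root. -/
theorem g2_refl2 (h2F : (2 : F) ≠ 0) (d : ℕ → F) (hd : MulGraded chevG2 d)
    (hsq : (torus F chevG2 d * nWordMat F chevG2 [0, 1, 0, 1, 0]) *
      (torus F chevG2 d * nWordMat F chevG2 [0, 1, 0, 1, 0]) = 1)
    (hrel : d 3 * d 7 = d 5) :
    ConjM chevG2 (torus F chevG2 d * nWordMat F chevG2 [0, 1, 0, 1, 0])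
      (torus F chevG2 d * chevG2.hMat F 6 (2 : F)⁻¹ * nWordMat F chevG2 [1, 0, 1, 0, 1, 0]) := by
  have hv : ∀ i ∈ [0, 1, 0, 1, 0], i < chevG2.rank := by decide
  have act : ∀ (s s' : ℕ) (η : ℤ), s < chevG2.nroots → wPi chevG2 [0, 1, 0, 1, 0] s = s' →
      wEta chevG2 [0, 1, 0, 1, 0] s = η → ∀ t : F,
      torus F chevG2 d * nWordMat F chevG2 [0, 1, 0, 1, 0] * chevG2.x F s t =
        chevG2.x F s' (d s' * ((η : F) * t)) *
          (torus F chevG2 d * nWordMat F chevG2 [0, 1, 0, 1, 0]) := by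
    intro s s' η hs e1 e2 t
    have := tn_act chevG2 g2_mem [0, 1, 0, 1, 0] hv d hd s hs t
    rw [e1, e2] at this
    exact this
  have a5 := act 5 5 1 (by decide) (by decide +kernel) (by decide +kernel)
  have a6 := act 6 6 1 (by decide) (by decide +kernel) (by decide +kernel)
  have a7 := act 7 3 1 (by decide) (by decide +kernel) (by decide +kernel)
  have a3 := act 3 7 (-1) (by decide) (by decide +kernel) (by decide +kernel)
  generalize hM : torus F chevG2 d * nWordMat F chevG2 [0, 1, 0, 1, 0] = M at hsq a5 a6 a7 a3 ⊢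
  have s7 : d 7 * d 3 = -1 := by
    have h : M * M * chevG2.x F 7 1 = chevG2.x F 7 1 := by rw [hsq, Matrix.one_mul]
    rw [Matrix.mul_assoc, a7, ← Matrix.mul_assoc, a3, Matrix.mul_assoc, hsq, Matrix.mul_one] at h
    have := Helper25.x_inj chevG2 g2_mem 7 (by decide) _ _ h
    push_cast at this
    linear_combination -this
  have s5 : d 5 * d 5 = 1 := by
    have h : M * M * chevG2.x F 5 1 = chevG2.x F 5 1 := by rw [hsq, Matrix.one_mul]
    rw [Matrix.mul_assoc, a5, ← Matrix.mul_assoc, a5, Matrix.mul_assoc, hsq, Matrix.mul_one] at h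
    have := Helper25.x_inj chevG2 g2_mem 5 (by decide) _ _ h
    push_cast at this
    linear_combination this
  have n65 : chevG2.neg 6 = 5 := by decide
  have hneg : d 5 * d 6 = 1 := by
    have := hd.neg 6 (by decide)
    rwa [n65] at this
  rcases mul_self_eq_one_iff.1 s5 with h5 | h5
  · exfalso
    rw [h5] at hrel
    apply h2F
    linear_combination s7 - hrel
  · have h6 : d 6 = -1 := by
      rw [h5] at hneg
      linear_combination -hneg
    have key := rank1_flip chevG2 g2_mem' 6 (by decide) (by decide) h2F M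
      (fun t => by rw [a6 t, h6]; congr 2; push_cast; ring)
      (fun t => by rw [n65, a5 t, h5]; congr 2; push_cast; ring)
    refine ⟨xGL chevG2 g2_mem' 6 (-(2 : F)⁻¹) * xGL chevG2 g2_mem' (chevG2.neg 6) 1,
      mul_mem (xGL_mem_group _ _ _ _) (xGL_mem_group _ _ _ _), ?_⟩
    rw [Units.val_mul, xGL_val, xGL_val, key]
    congr 1
    rw [← hM, Matrix.mul_assoc,
      nWordMat_mul_nMat chevG2 g2_mem [0, 1, 0, 1, 0] hv 6 (by decide)]
    have e1 : wPi chevG2 [0, 1, 0, 1, 0] 6 = 6 := by decide +kernel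
    have e2 : wEta chevG2 [0, 1, 0, 1, 0] 6 = 1 := by decide +kernel
    rw [e1, e2, Int.cast_one, one_mul, Helper24.nMat_eq_hMat_mul chevG2 g2_mem' 6 (by decide)]
    have e3 : nWordMat F chevG2 [1, 0, 1, 0, 1, 0] =
        chevG2.nMat F 6 1 * nWordMat F chevG2 [0, 1, 0, 1, 0] := by
      rw [nWordMat_cons]
      rfl
    rw [e3]
    simp only [Matrix.mul_assoc]

end

end Cfsg.Agent.Lib.Helper25
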