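import Mathlib
import Cfsg.Agent.Lib.Helper25.InvG2OddB
import Cfsg.Agent.Lib.Helper21.InvCA
import Cfsg.Agent.Lib.Helper69.InvCB
import Cfsg.Agent.Lib.Helper25.ChevWeylData
import Cfsg.Agent.Lib.Helper25.ChevOrderData
import Cfsg.Agent.Lib.Helper25.CoxSmallData

/-!
# Involutions of `G₂(q)`, `q` odd: one conjugacy class

Every involution of the Chevalley group of type `G₂` over a finite field of odd order is
conjugate to the standard representative of the longest element of the Weyl group.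
-/

set_option autoImplicit false

namespace Cfsg.Agent.Lib.Helper25

open Cfsg Cfsg.Lie Matrix
open Cfsg.Agent.Lib.Helper8 Cfsg.Agent.Lib.Helper24

section Abstract

variable {G : Type*} [Group G]

/-- If the maximal cell of an element is the trivial one, all its conjugates lie in `B`. -/
theorem maxCell_conj_mem_B (P : BNPair G) (t : G) (n : P.N) (hn : (n : G) ∈ P.B)
    (hmax : MaxCell P t n) (g : G) : g * t * g⁻¹ ∈ P.B := by
  obtain ⟨n', hn', hmem⟩ := bruhat P (g * t * g⁻¹)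
  have h1 := hmax g ⟨n', hn'⟩ hmem
  have h2 : cl P n = 1 := cl_eq_one_iff.2 hn
  rw [h2, len_one] at h1
  have h3 : cl P ⟨n', hn'⟩ = 1 := (SW_invGen P).len_eq_zero (Nat.le_zero.1 h1)
  have h4 : n' ∈ P.B := cl_eq_one_iff.1 h3
  rw [dc_of_mem h4] at hmem
  exact hmem

end Abstract

section

variable {F : Type*} [Field F]

/-- `h_r(t)` as an invertible matrix. -/
theorem exists_hGL_odd (D : ChevalleyDatum) (hD : D ∈ chevList) (r : ℕ) (hr : r < D.nroots)
    (t : F) (ht : t ≠ 0) :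
    ∃ g : GL D.Idx F, (g : Matrix D.Idx D.Idx F) = D.hMat F r t := by
  have h1 : ∀ t : F, t ≠ 0 → D.hMat F r t * D.hMat F r t⁻¹ = 1 := by
    intro t ht
    rw [hMat_eq_torus D hD r hr t ht, hMat_eq_torus D hD r hr t⁻¹ (inv_ne_zero ht),
      torus_mul_torus, ← torus_one (F := F) D]
    apply torus_congr
    intro s _
    rw [_root_.inv_zpow]
    exact mul_inv_cancel₀ (zpow_ne_zero _ ht)
  refine ⟨⟨D.hMat F r t, D.hMat F r t⁻¹, h1 t ht, ?_⟩, rfl⟩
  have := h1 t⁻¹ (inv_ne_zero ht)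
  rwa [inv_inv] at this

theorem g2_surv : ∀ v ∈ allWords g2Levels,
    (∀ i < chevG2.rank, chevG2.IsNegRoot (wPi chevG2 v (chevG2.simple i)) ∨
      wPi chevG2 v (chevG2.simple i) = chevG2.simple i) →
    v ∈ [[], [1, 0, 1, 0, 1], [0, 1, 0, 1, 0], [0, 1, 0, 1, 0, 1]] := by decide +kernel

theorem g2_tprod (c : ℕ → F) (s : ℕ) :
    Helper24.tprod chevG2 c s = c 0 ^ chevG2.cartan 0 s * c 1 ^ chevG2.cartan 1 s := by
  unfold Helper24.tprod
  have : chevG2.rank = 2 := rfl
  rw [this]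
  simp [List.range_succ]

theorem torus_inj_of_lt (D : ChevalleyDatum) (d d' : ℕ → F) (h : torus F D d = torus F D d')
    (s : ℕ) (hs : s < D.nroots) : d s = d' s := by
  have := congrFun (congrFun h (Sum.inr ⟨s, hs⟩)) (Sum.inr ⟨s, hs⟩)
  simpa [torus] using this

/-- The coordinates of an element of the diagonal subgroup. -/
theorem g2_diag_coords (h : GL chevG2.Idx F) (hh : h ∈ chevG2.diagonalSubgroup F) :
    ∃ d : ℕ → F, MulGraded chevG2 d ∧
      (h : Matrix chevG2.Idx chevG2.Idx F) = torus F chevG2 d ∧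
      d 1 * d 6 = d 4 ^ 3 ∧ d 3 * d 7 = d 5 ∧ (d 4 = 1 → d 5 = 1 → h = 1) := by
  obtain ⟨d, hd, hval⟩ := diagonalSubgroup_le_gradedTorus chevG2 g2_mem' hh
  obtain ⟨c, hc, hval'⟩ := diagonalSubgroup_le_simpleTorus chevG2 g2_mem' hh
  have hc0 : c 0 ≠ 0 := hc 0 (by decide)
  have hc1 : c 1 ≠ 0 := hc 1 (by decide)
  have key : ∀ s < chevG2.nroots,
      d s = c 0 ^ chevG2.cartan 0 s * c 1 ^ chevG2.cartan 1 s := by
    intro s hs
    rw [← g2_tprod]
    exact torus_inj_of_lt chevG2 d _ (hval.symm.trans hval') s hs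
  have e1 := key 1 (by decide)
  have e3 := key 3 (by decide)
  have e4 := key 4 (by decide)
  have e5 := key 5 (by decide)
  have e6 := key 6 (by decide)
  have e7 := key 7 (by decide)
  have k01 : chevG2.cartan 0 1 = -3 := by decide
  have k11 : chevG2.cartan 1 1 = 1 := by decide
  have k03 : chevG2.cartan 0 3 = 1 := by decide
  have k13 : chevG2.cartan 1 3 = -1 := by decide
  have k04 : chevG2.cartan 0 4 = -2 := by decide
  have k14 : chevG2.cartan 1 4 = 1 := by decide
  have k05 : chevG2.cartan 0 5 = 3 := by decide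
  have k15 : chevG2.cartan 1 5 = -2 := by decide
  have k06 : chevG2.cartan 0 6 = -3 := by decide
  have k16 : chevG2.cartan 1 6 = 2 := by decide
  have k07 : chevG2.cartan 0 7 = 2 := by decide
  have k17 : chevG2.cartan 1 7 = -1 := by decide
  rw [k01, k11] at e1
  rw [k03, k13] at e3
  rw [k04, k14] at e4
  rw [k05, k15] at e5
  rw [k06, k16] at e6
  rw [k07, k17] at e7
  have z1 : c 0 ^ (-3 : ℤ) = (c 0 ^ 3)⁻¹ := by
    rw [_root_.zpow_neg]; norm_cast
  have z2 : c 0 ^ (-2 : ℤ) = (c 0 ^ 2)⁻¹ := by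
    rw [_root_.zpow_neg]; norm_cast
  have z3 : c 1 ^ (-1 : ℤ) = (c 1)⁻¹ := zpow_neg_one _
  have z4 : c 1 ^ (-2 : ℤ) = (c 1 ^ 2)⁻¹ := by
    rw [_root_.zpow_neg]; norm_cast
  have z5 : c 0 ^ (1 : ℤ) = c 0 := zpow_one _
  have z6 : c 1 ^ (1 : ℤ) = c 1 := zpow_one _
  have z7 : c 0 ^ (2 : ℤ) = c 0 ^ 2 := by norm_cast
  have z8 : c 0 ^ (3 : ℤ) = c 0 ^ 3 := by norm_cast
  have z9 : c 1 ^ (2 : ℤ) = c 1 ^ 2 := by norm_cast
  rw [z1, z6] at e1
  rw [z5, z3] at e3
  rw [z2, z6] at e4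
  rw [z8, z4] at e5
  rw [z1, z9] at e6
  rw [z7, z3] at e7
  refine ⟨d, hd, hval, ?_, ?_, ?_⟩
  · rw [e1, e6, e4]
    field_simp
  · rw [e3, e7, e5]
    field_simp
  · intro h4 h5
    rw [e4] at h4
    rw [e5] at h5
    have hb : c 1 = c 0 ^ 2 := ((inv_mul_eq_one₀ (pow_ne_zero 2 hc0)).1 h4).symm
    have ha : c 0 = 1 := by
      rw [hb] at h5
      have h6 : c 0 ^ 3 = (c 0 ^ 2) ^ 2 :=
        (mul_inv_eq_one₀ (pow_ne_zero 2 (pow_ne_zero 2 hc0))).1 h5
      have h7 : c 0 ^ 3 * (c 0 - 1) = 0 := by linear_combination -h6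
      rcases mul_eq_zero.1 h7 with h8 | h8
      · exact absurd (pow_eq_zero_iff (n := 3) (by norm_num) |>.1 h8) hc0
      · linear_combination h8
    have hb' : c 1 = 1 := by rw [hb, ha, one_pow]
    apply Units.ext
    rw [hval', Units.val_one, ← torus_one (F := F) chevG2]
    apply torus_congr
    intro s _
    rw [g2_tprod, ha, hb', _root_.one_zpow, _root_.one_zpow, one_mul]


/-- Every involution of `G₂(q)`, `q` odd, is conjugate to the standard representative of the
longest element of the Weyl group. -/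
theorem g2odd_main [Fintype F] (hodd : Fintype.card F % 2 = 1) (t : GL chevG2.Idx F)
    (ht : t ∈ chevG2.group F) (h2 : t * t = 1) (h1 : t ≠ 1) :
    ConjM chevG2 (t : Matrix chevG2.Idx chevG2.Idx F)
      (nWordMat F chevG2 [0, 1, 0, 1, 0, 1]) := by
  classical
  have h2F : (2 : F) ≠ 0 := by
    have hc : ringChar F ≠ 2 := by
      intro hc
      have := FiniteField.even_card_iff_char_two.1 hc
      omega
    exact Ring.two_ne_zero hc
  have hpr : Fact (ringChar F).Prime := ⟨CharP.char_is_prime F (ringChar F)⟩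
  obtain ⟨hBU, hUB, hUc, hUN, hHN⟩ := inv_chev_hyps (F := F) (ringChar F) chevG2 g2_mem
  have h0 := st_noAsc (F := F) chevG2 g2_mem
  have ht2 : (⟨t, ht⟩ : ↥(chevG2.group F)) * ⟨t, ht⟩ = 1 := Subtype.ext h2
  obtain ⟨g, u, n, hu, hg, hmax⟩ := inv_exists_max (chevBN (F := F) chevG2 g2_mem)
    ((chevG2.posUnipotent F).subgroupOf (chevG2.group F)) hBU (⟨t, ht⟩ : ↥(chevG2.group F))
  have hu1 := inv_u_eq_one (chevBN (F := F) chevG2 g2_mem) _
    ((chevG2.diagonalSubgroup F).subgroupOf (chevG2.group F)) hUB hUc hUN hHN h0 _ ht2 g u n hu hg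
    hmax
  have hgn : g * ⟨t, ht⟩ * g⁻¹ = (n : ↥(chevG2.group F)) := by rw [hg, hu1, one_mul]
  have hmem : g * ⟨t, ht⟩ * g⁻¹ ∈
      dc (chevBN (F := F) chevG2 g2_mem) (n : ↥(chevG2.group F)) := by
    rw [hgn]
    exact mem_dc_self _ _
  have hdich := (inv_cell_dichotomy (chevBN (F := F) chevG2 g2_mem) _ ht2 n g hmem hmax).2
  have hnN : ((n : ↥(chevG2.group F)) : GL chevG2.Idx F) ∈ chevG2.monomialSubgroup F :=
    Subgroup.mem_subgroupOf.1 n.2
  obtain ⟨v, hv, hvr, h, hh, hn⟩ := inv_chev_word chevG2 g2_mem CoxeterMatrix.G₂ rfl weyl_G2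
    g2ML g2Cart g2Levels rfl (by intro i j; fin_cases i <;> fin_cases j <;> rfl)
    chainOK_G2 posChk_G2 _ hnN
  have hvs := g2_surv v hv (fun i hi => inv_chev_cond chevG2 g2_mem v hvr n h hh hn i hi
    (hdich _ (mem_SW _ (stSigma_mem chevG2 g2_mem i hi))))
  -- conjugacy of `t` to `h * n_v`
  have c0 : ConjM chevG2 (t : Matrix chevG2.Idx chevG2.Idx F)
      ((h : Matrix chevG2.Idx chevG2.Idx F) * nWordMat F chevG2 v) := by
    refine ⟨(g : GL chevG2.Idx F), g.2, ?_⟩
    rw [← hn]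
    have e : g * ⟨t, ht⟩ = (n : ↥(chevG2.group F)) * g := by
      rw [← hgn]
      group
    have := congrArg (fun x : ↥(chevG2.group F) =>
      ((x : GL chevG2.Idx F) : Matrix chevG2.Idx chevG2.Idx F)) e
    simpa using this
  have hsq : ((h : Matrix chevG2.Idx chevG2.Idx F) * nWordMat F chevG2 v) *
      ((h : Matrix chevG2.Idx chevG2.Idx F) * nWordMat F chevG2 v) = 1 := by
    rw [← hn]
    have e : (n : ↥(chevG2.group F)) * (n : ↥(chevG2.group F)) = 1 := by
      rw [← hgn]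
      have : g * ⟨t, ht⟩ * g⁻¹ * (g * ⟨t, ht⟩ * g⁻¹) = g * (⟨t, ht⟩ * ⟨t, ht⟩) * g⁻¹ := by group
      rw [this, ht2]
      group
    have := congrArg (fun x : ↥(chevG2.group F) =>
      ((x : GL chevG2.Idx F) : Matrix chevG2.Idx chevG2.Idx F)) e
    simpa using this
  obtain ⟨d, hd, hval, hrel1, hrel2, htriv⟩ := g2_diag_coords h hh
  simp only [List.mem_cons, List.not_mem_nil, or_false] at hvs
  rcases hvs with rfl | rfl | rfl | rfl
  · -- the trivial element: `t` would be central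
    exfalso
    have hn' : (((n : ↥(chevG2.group F)) : GL chevG2.Idx F) : Matrix chevG2.Idx chevG2.Idx F) =
        (h : Matrix chevG2.Idx chevG2.Idx F) := by
      rw [hn]
      simp [nWordMat]
    have hnh : ((n : ↥(chevG2.group F)) : GL chevG2.Idx F) = h := Units.ext hn'
    have hhB : h ∈ chevG2.borelSubgroup F :=
      (le_sup_right : chevG2.diagonalSubgroup F ≤ chevG2.borelSubgroup F) hh
    have hnB : (n : ↥(chevG2.group F)) ∈ (chevBN (F := F) chevG2 g2_mem).B := by
      show (n : ↥(chevG2.group F)) ∈ (chevG2.borelSubgroup F).subgroupOf (chevG2.group F)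
      rw [Subgroup.mem_subgroupOf, hnh]
      exact hhB
    have hq : ∀ q, q < chevG2.nroots → chevG2.IsNegRoot q → d q = 1 := by
      intro q hq hneg
      have hB := maxCell_conj_mem_B (chevBN (F := F) chevG2 g2_mem) _ n hnB hmax
        (⟨xGL chevG2 g2_mem' q 1, xGL_mem_group chevG2 g2_mem' q 1⟩ * g)
      have e1 : (⟨xGL chevG2 g2_mem' q 1, xGL_mem_group chevG2 g2_mem' q 1⟩ * g) * ⟨t, ht⟩ *
          (⟨xGL chevG2 g2_mem' q 1, xGL_mem_group chevG2 g2_mem' q 1⟩ * g)⁻¹ =
          ⟨xGL chevG2 g2_mem' q 1, xGL_mem_group chevG2 g2_mem' q 1⟩ * (n : ↥(chevG2.group F)) *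
            (⟨xGL chevG2 g2_mem' q 1, xGL_mem_group chevG2 g2_mem' q 1⟩ : ↥(chevG2.group F))⁻¹ := by
        rw [← hgn]
        group
      rw [e1] at hB
      have hB' : xGL chevG2 g2_mem' q 1 * h * (xGL chevG2 g2_mem' q 1)⁻¹ ∈
          chevG2.borelSubgroup F := by
        have := Subgroup.mem_subgroupOf.1 hB
        simpa [hnh] using this
      have e2 : xGL chevG2 g2_mem' q (1 - d q) * h * xGL chevG2 g2_mem' q 1 =
          xGL chevG2 g2_mem' q 1 * h := by
        apply Units.ext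
        rw [Units.val_mul, Units.val_mul, Units.val_mul, xGL_val, xGL_val, hval, Matrix.mul_assoc,
          torus_mul_x chevG2 d hd q hq 1, ← Matrix.mul_assoc, x_add chevG2 g2_mem' q hq]
        congr 2
        ring
      have e3 : xGL chevG2 g2_mem' q 1 * h * (xGL chevG2 g2_mem' q 1)⁻¹ =
          xGL chevG2 g2_mem' q (1 - d q) * h := mul_inv_eq_of_eq_mul e2.symm
      rw [e3] at hB'
      have hw : xGL chevG2 g2_mem' q (1 - d q) ∈ chevG2.borelSubgroup F :=
        (Subgroup.mul_mem_cancel_right _ hhB).1 hB'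
      have hw' : xGL chevG2 g2_mem' q (1 - d q) ∈ chevG2.negUnipotent F :=
        Subgroup.subset_closure ⟨q, 1 - d q, hneg, xGL_val _ _ _ _⟩
      have h1' : xGL chevG2 g2_mem' q (1 - d q) = 1 := by
        have : xGL chevG2 g2_mem' q (1 - d q) ∈
            chevG2.borelSubgroup F ⊓ chevG2.negUnipotent F := ⟨hw, hw'⟩
        rw [borel_inf_negUnipotent chevG2 g2_mem'] at this
        exact Subgroup.mem_bot.1 this
      have h2' : chevG2.x F q (1 - d q) = chevG2.x F q 0 := by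
        rw [Helper24.x_zero, ← xGL_val chevG2 g2_mem', h1', Units.val_one]
      have := Helper25.x_inj chevG2 g2_mem q hq _ _ h2'
      linear_combination -this
    have hh1 : h = 1 := htriv (hq 4 (by decide) (by decide)) (hq 5 (by decide) (by decide))
    apply h1
    have e4 : g * ⟨t, ht⟩ * g⁻¹ = 1 := by
      rw [hgn]
      apply Subtype.ext
      rw [hnh, hh1]
      rfl
    have ht1 : (⟨t, ht⟩ : ↥(chevG2.group F)) = 1 := by
      have e : (⟨t, ht⟩ : ↥(chevG2.group F)) = g⁻¹ * (g * ⟨t, ht⟩ * g⁻¹) * g := by group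
      rw [e, e4]
      group
    exact congrArg Subtype.val ht1
  · -- the reflection in the highest root
    rw [hval] at hsq c0
    have c1 := g2_refl1 h2F d hd hsq hrel1
    obtain ⟨k, hk⟩ := exists_hGL_odd (F := F) chevG2 g2_mem' 7 (by decide) (2 : F)⁻¹ (inv_ne_zero h2F)
    have hkH : k ∈ chevG2.diagonalSubgroup F :=
      Subgroup.subset_closure ⟨7, (2 : F)⁻¹, by decide, inv_ne_zero h2F, hk⟩
    have c2 := g2_w0_conj hodd (h * k) (mul_mem hh hkH)
    rw [Units.val_mul, hval, hk] at c2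
    exact c0.trans (c1.trans c2)
  · -- the reflection in the highest short root
    rw [hval] at hsq c0
    have c1 := g2_refl2 h2F d hd hsq hrel2
    obtain ⟨k, hk⟩ := exists_hGL_odd (F := F) chevG2 g2_mem' 6 (by decide) (2 : F)⁻¹ (inv_ne_zero h2F)
    have hkH : k ∈ chevG2.diagonalSubgroup F :=
      Subgroup.subset_closure ⟨6, (2 : F)⁻¹, by decide, inv_ne_zero h2F, hk⟩
    obtain ⟨h₁, hh₁, e₁⟩ := inv_chev_word_coset (F := F) chevG2 g2_mem [1, 0, 1, 0, 1, 0]
      [0, 1, 0, 1, 0, 1] (by decide) (by decide) (by decide +kernel)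
    have c2 := g2_w0_conj hodd (h * k * h₁) (mul_mem (mul_mem hh hkH) hh₁)
    rw [Units.val_mul, Units.val_mul, hval, hk, Matrix.mul_assoc, ← e₁] at c2
    exact c0.trans (c1.trans c2)
  · -- the longest element
    exact c0.trans (g2_w0_conj hodd h hh)

end

end Cfsg.Agent.Lib.Helper25
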