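import Mathlib
import Cfsg.Agent.Lib.Helper25.InvG2Odd
import Cfsg.Agent.Lib.Helper25.ChevOrder
import Cfsg.Agent.Lib.Helper24.UProdAll
import Cfsg.Agent.Lib.Helper24.ChevSL2
import Cfsg.Agent.Lib.Helper24.ChevCardAll

/-!
# The centralizer of an involution of `G₂(q)`, `q` odd: definitions

The torus involution `τ = h_α(-1)` (`α` the short fundamental root, of index `7`), its character
`χ` on the roots (`χ = 1` exactly on the roots `7`, `4 = -7`, `11`, `0 = -11`), and the
parametrisation `psi` of the centralizer of `τ` by its four Bruhat cells.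
-/

set_option autoImplicit false

namespace Cfsg.Agent.Lib.Helper25.G2c

open Cfsg Cfsg.Lie Matrix
open Cfsg.Agent.Lib.Helper8 Cfsg.Agent.Lib.Helper24 Cfsg.Agent.Lib.Helper25

section

variable (F : Type*) [Field F]

/-- The character of the torus involution: `χ(s) = (-1)^⟨s, α^∨⟩`. -/
def chi (s : ℕ) : F := (-1) ^ W chevG2 7 s

theorem tau_aux : torus F chevG2 (chi F) * torus F chevG2 (chi F) = 1 := by
  rw [torus_mul_torus, ← torus_one (F := F) chevG2]
  apply torus_congr
  intro s _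
  unfold chi
  rw [← mul_zpow, neg_mul_neg, one_mul, _root_.one_zpow]

/-- The torus involution `τ = h_α(-1)`. -/
noncomputable def tau : GL chevG2.Idx F :=
  ⟨torus F chevG2 (chi F), torus F chevG2 (chi F), tau_aux F, tau_aux F⟩

theorem tau_val : ((tau F : GL chevG2.Idx F) : Matrix chevG2.Idx chevG2.Idx F) =
    torus F chevG2 (chi F) := rfl

theorem tau_eq_hMat : ((tau F : GL chevG2.Idx F) : Matrix chevG2.Idx chevG2.Idx F) =
    chevG2.hMat F 7 (-1) := by
  rw [tau_val, hMat_eq_torus chevG2 g2_mem' 7 (by decide) (-1 : F) (neg_ne_zero.2 one_ne_zero)]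
  rfl

theorem tau_mem_diag : tau F ∈ chevG2.diagonalSubgroup F :=
  Subgroup.subset_closure ⟨7, -1, by decide, neg_ne_zero.2 one_ne_zero, tau_eq_hMat F⟩

theorem tau_mem : tau F ∈ chevG2.group F :=
  diagonalSubgroup_le_group chevG2 g2_mem' (tau_mem_diag F)

theorem tau_sq : tau F * tau F = 1 := Units.ext (tau_aux F)

theorem tau_inv : (tau F)⁻¹ = tau F := inv_eq_of_mul_eq_one_left (tau_sq F)

theorem chi_graded : MulGraded chevG2 (chi F) :=
  mulGraded_of_addGraded chevG2 (W chevG2 7) (addGraded_W chevG2 g2_mem' 7) (-1 : F)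
    (neg_ne_zero.2 one_ne_zero)

/-- `τ x_s(t) = x_s(χ(s) t) τ`. -/
theorem tau_x (s : ℕ) (hs : s < chevG2.nroots) (t : F) :
    ((tau F : GL chevG2.Idx F) : Matrix chevG2.Idx chevG2.Idx F) * chevG2.x F s t =
      chevG2.x F s (chi F s * t) * ((tau F : GL chevG2.Idx F) : Matrix chevG2.Idx chevG2.Idx F) :=
  torus_mul_x chevG2 (chi F) (chi_graded F) s hs t

theorem chi_even (s : ℕ) (hs : s = 7 ∨ s = 4 ∨ s = 11 ∨ s = 0) : chi F s = 1 := by
  unfold chi
  rcases hs with rfl | rfl | rfl | rfl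
  · have : W chevG2 7 7 = 2 := by decide +kernel
    rw [this]; norm_num
  · have : W chevG2 7 4 = -2 := by decide +kernel
    rw [this]; norm_num
  · have : W chevG2 7 11 = 0 := by decide +kernel
    rw [this]; norm_num
  · have : W chevG2 7 0 = 0 := by decide +kernel
    rw [this]; norm_num

theorem chi_odd (s : ℕ) (hs : s ∈ [1, 2, 3, 5, 6, 8, 9, 10]) : chi F s = -1 := by
  unfold chi
  simp only [List.mem_cons, List.not_mem_nil, or_false] at hs
  rcases hs with rfl | rfl | rfl | rfl | rfl | rfl | rfl | rfl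
  · have : W chevG2 7 1 = -3 := by decide +kernel
    rw [this]; norm_num
  · have : W chevG2 7 2 = -1 := by decide +kernel
    rw [this]; norm_num
  · have : W chevG2 7 3 = 1 := by decide +kernel
    rw [this]; norm_num
  · have : W chevG2 7 5 = 3 := by decide +kernel
    rw [this]; norm_num
  · have : W chevG2 7 6 = -3 := by decide +kernel
    rw [this]; norm_num
  · have : W chevG2 7 8 = -1 := by decide +kernel
    rw [this]; norm_num
  · have : W chevG2 7 9 = 1 := by decide +kernel
    rw [this]; norm_num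
  · have : W chevG2 7 10 = 3 := by decide +kernel
    rw [this]; norm_num

theorem tau_ne_one (h2 : (2 : F) ≠ 0) : tau F ≠ 1 := by
  intro h
  have h1 : torus F chevG2 (chi F) = torus F chevG2 (fun _ => 1) := by
    rw [torus_one, ← tau_val, h, Units.val_one]
  have h3 := torus_inj_of_lt chevG2 _ _ h1 6 (by decide)
  rw [chi_odd F 6 (by simp)] at h3
  apply h2
  linear_combination -h3

/-- `τ` commutes with the root elements of the roots `7, 4, 11, 0`. -/
theorem tau_comm_x (s : ℕ) (hs : s = 7 ∨ s = 4 ∨ s = 11 ∨ s = 0) (t : F) :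
    tau F * xGL chevG2 g2_mem' s t = xGL chevG2 g2_mem' s t * tau F := by
  apply Units.ext
  have hlt : s < chevG2.nroots := by
    rcases hs with rfl | rfl | rfl | rfl <;> decide
  rw [Units.val_mul, Units.val_mul, xGL_val, tau_x F s hlt t, chi_even F s hs, one_mul]

/-- The four words of the Weyl group elements fixing `χ`. -/
def cw : List (List ℕ) := [[], [0], [1, 0, 1, 0, 1], [0, 1, 0, 1, 0, 1]]

/-- The standard representative in `GL` of a word. -/
noncomputable def nW (v : List ℕ) : GL chevG2.Idx F := (nWordN F chevG2 g2_mem v : GL chevG2.Idx F)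

theorem nW_val (v : List ℕ) (hv : ∀ i ∈ v, i < chevG2.rank) :
    ((nW F v : GL chevG2.Idx F) : Matrix chevG2.Idx chevG2.Idx F) = nWordMat F chevG2 v :=
  nWordN_val chevG2 g2_mem v hv

theorem nW_mem (v : List ℕ) : nW F v ∈ chevG2.monomialSubgroup F := (nWordN F chevG2 g2_mem v).2

theorem cw_lt (v : List ℕ) (hv : v ∈ cw) : ∀ i ∈ v, i < chevG2.rank := by
  unfold cw at hv
  simp only [List.mem_cons, List.not_mem_nil, or_false] at hv
  rcases hv with rfl | rfl | rfl | rfl <;> decide

/-- The parameters of the four cells: the word, and the parameters of `x_7` and `x_11`. -/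
def pw : Unit ⊕ F ⊕ F ⊕ (F × F) → List ℕ × F × F
  | Sum.inl _ => ([], 0, 0)
  | Sum.inr (Sum.inl c) => ([0], c, 0)
  | Sum.inr (Sum.inr (Sum.inl d)) => ([1, 0, 1, 0, 1], 0, d)
  | Sum.inr (Sum.inr (Sum.inr (c, d))) => ([0, 1, 0, 1, 0, 1], c, d)

/-- The parametrisation of the centralizer of `τ`:
`((a, b), h, p) ↦ x_7(a) x_11(b) h n_v x_7(c) x_11(d)` with `(v, c, d) = pw p`. -/
noncomputable def psi (i : (F × F) × ↥(chevG2.diagonalSubgroup F) × (Unit ⊕ F ⊕ F ⊕ (F × F))) :
    GL chevG2.Idx F :=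
  xGL chevG2 g2_mem' 7 i.1.1 * xGL chevG2 g2_mem' 11 i.1.2 * (i.2.1 : GL chevG2.Idx F) *
    nW F (pw F i.2.2).1 *
    (xGL chevG2 g2_mem' 7 (pw F i.2.2).2.1 * xGL chevG2 g2_mem' 11 (pw F i.2.2).2.2)

/-- The subgroup `⟨X_r, X_{-r}⟩`. -/
def LL (r : ℕ) : Subgroup (GL chevG2.Idx F) :=
  chevG2.rootSubgroup F r ⊔ chevG2.rootSubgroup F (chevG2.neg r)

theorem LL_le (r : ℕ) : LL F r ≤ chevG2.group F := rootSub_le_group chevG2 g2_mem' r

end

end Cfsg.Agent.Lib.Helper25.G2c
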