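import Mathlib
import Cfsg.Agent.Lib.Helper25.G2cD

set_option autoImplicit false

/-! S4279 piece XI (filled by helper75): `x_7(a) x_11(b)` determines `(a, b)`. -/

namespace Cfsg.Agent.Lib.Helper25.G2c

open Cfsg Cfsg.Lie Matrix
open Cfsg.Agent.Lib.Helper8 Cfsg.Agent.Lib.Helper24 Cfsg.Agent.Lib.Helper25

variable {F : Type*} [Field F]

theorem xi_word (a b : F) :
    ((xGL chevG2 g2_mem' 7 a * xGL chevG2 g2_mem' 11 b : GL chevG2.Idx F) :
      Matrix chevG2.Idx chevG2.Idx F) =
    chevG2.wordMat F (chevG2.posRoots.map fun r =>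
      (r, (fun r : ℕ => if r = 7 then a else if r = 11 then b else 0) r)) := by
  have hpos : chevG2.posRoots = [6, 7, 8, 9, 10, 11] := by decide
  rw [hpos]
  simp only [List.map_cons, List.map_nil]
  unfold ChevalleyDatum.wordMat
  simp [Helper24.x_zero, xGL_val]

theorem xi_mem (a b : F) :
    xGL chevG2 g2_mem' 7 a * xGL chevG2 g2_mem' 11 b ∈ chevG2.posUnipotent F := by
  apply mul_mem
  · exact Subgroup.subset_closure ⟨7, a, by decide, xGL_val _ _ _ _⟩
  · exact Subgroup.subset_closure ⟨11, b, by decide, xGL_val _ _ _ _⟩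

theorem xi_van (a b : F) (r : ℕ) (hr : ¬ chevG2.IsPosRoot r) :
    (fun r : ℕ => if r = 7 then a else if r = 11 then b else 0) r = 0 := by
  have h7 : chevG2.IsPosRoot 7 := by decide
  have h11 : chevG2.IsPosRoot 11 := by decide
  have hr7 : r ≠ 7 := fun h => hr (h ▸ h7)
  have hr11 : r ≠ 11 := fun h => hr (h ▸ h11)
  simp [hr7, hr11]

theorem x7_x11_inj (a b a' b' : F)
    (h : xGL chevG2 g2_mem' 7 a * xGL chevG2 g2_mem' 11 b =
      xGL chevG2 g2_mem' 7 a' * xGL chevG2 g2_mem' 11 b') : a = a' ∧ b = b' := by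
  obtain ⟨t, -, huniq⟩ := (unique_product_all (F := F) chevG2 g2_mem').1 _ (xi_mem a b)
  have h1 := huniq _ ⟨xi_van a b, xi_word a b⟩
  have h2 := huniq _ ⟨xi_van a' b', by rw [h]; exact xi_word a' b'⟩
  have h3 := h1.trans h2.symm
  constructor
  · have := congrFun h3 7
    simpa using this
  · have := congrFun h3 11
    simpa using this

end Cfsg.Agent.Lib.Helper25.G2c
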