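import Mathlib
import Cfsg.Agent.Lib.Helper25.G2cD
import Cfsg.Agent.Lib.Helper25.G2cXXI
import Cfsg.Agent.Lib.Helper25.ChevBN

set_option autoImplicit false

/-! S4279 piece PI (uniqueness of the Bruhat normal form). -/

namespace Cfsg.Agent.Lib.Helper25.G2c

open Cfsg Cfsg.Lie Matrix
open Cfsg.Agent.Lib.Helper8 Cfsg.Agent.Lib.Helper24 Cfsg.Agent.Lib.Helper25

variable {F : Type*} [Field F]

theorem pi_pos_neg (P Q : ℕ) (a b : F) (ha : a ≠ 0) (hP : P < chevG2.nroots)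
    (hpos : chevG2.IsPosRoot P) (hneg : chevG2.IsNegRoot Q) :
    chevG2.x F P a ≠ chevG2.x F Q b := by
  intro h
  have h1 : xGL chevG2 g2_mem' P a ∈ chevG2.borelSubgroup F ⊓ chevG2.negUnipotent F := by
    refine ⟨(le_sup_left : chevG2.posUnipotent F ≤ chevG2.borelSubgroup F)
      (Subgroup.subset_closure ⟨P, a, hpos, xGL_val _ _ _ _⟩), ?_⟩
    have : xGL chevG2 g2_mem' P a = xGL chevG2 g2_mem' Q b :=
      Units.ext (by rw [xGL_val, xGL_val, h])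
    rw [this]
    exact Subgroup.subset_closure ⟨Q, b, hneg, xGL_val _ _ _ _⟩
  rw [borel_inf_negUnipotent chevG2 g2_mem', Subgroup.mem_bot] at h1
  exact x_ne_one chevG2 g2_mem P hP a ha (by rw [← xGL_val chevG2 g2_mem', h1, Units.val_one])

theorem pi_sign (v v' : List ℕ) (hv : ∀ i ∈ v, i < chevG2.rank) (hv' : ∀ i ∈ v', i < chevG2.rank)
    (hk : (nW F v)⁻¹ * nW F v' ∈ chevG2.diagonalSubgroup F) (s : ℕ) (hs : s < chevG2.nroots) :
    chevG2.IsPosRoot (wPi chevG2 v' s) ↔ chevG2.IsPosRoot (wPi chevG2 v s) := by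
  obtain ⟨e, he, hkval⟩ := diagonalSubgroup_le_gradedTorus chevG2 g2_mem' hk
  have hN' : ((nW F v' : GL chevG2.Idx F) : Matrix chevG2.Idx chevG2.Idx F) =
      nWordMat F chevG2 v * torus F chevG2 e := by
    rw [← hkval, Units.val_mul, ← nW_val F v hv, ← Matrix.mul_assoc, ← Units.val_mul,
      mul_inv_cancel, Units.val_one, Matrix.one_mul]
  have hP := wPi_lt chevG2 g2_mem v' hv' s hs
  have hQ := wPi_lt chevG2 g2_mem v hv s hs
  have h1 := nWordMat_conj (F := F) chevG2 g2_mem v' hv' s hs 1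
  rw [← nW_val F v' hv'] at h1
  have h2 : ((nW F v' : GL chevG2.Idx F) : Matrix chevG2.Idx chevG2.Idx F) * chevG2.x F s 1 =
      chevG2.x F (wPi chevG2 v s) (((wEta chevG2 v s : ℤ) : F) * (e s * 1)) *
        ((nW F v' : GL chevG2.Idx F) : Matrix chevG2.Idx chevG2.Idx F) := by
    rw [hN', Matrix.mul_assoc, torus_mul_x chevG2 e he s hs 1, ← Matrix.mul_assoc,
      nWordMat_conj chevG2 g2_mem v hv s hs _, Matrix.mul_assoc]
  rw [h1] at h2
  have h3 : chevG2.x F (wPi chevG2 v' s) (((wEta chevG2 v' s : ℤ) : F) * 1) =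
      chevG2.x F (wPi chevG2 v s) (((wEta chevG2 v s : ℤ) : F) * (e s * 1)) := by
    have := congrArg (fun M : Matrix chevG2.Idx chevG2.Idx F =>
      M * (((nW F v')⁻¹ : GL chevG2.Idx F) : Matrix chevG2.Idx chevG2.Idx F)) h2
    simpa only [Matrix.mul_assoc, Units.mul_inv, Matrix.mul_one] using this
  have hη' : ((wEta chevG2 v' s : ℤ) : F) * 1 ≠ 0 := by
    rcases wEta_cases chevG2 v' s with h | h <;> rw [h] <;> simp
  have hb : ((wEta chevG2 v s : ℤ) : F) * (e s * 1) ≠ 0 := by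
    intro h0
    rw [h0, Helper24.x_zero] at h3
    exact x_ne_one chevG2 g2_mem _ hP _ hη' h3
  obtain ⟨hP1, -, -, -⟩ := sign_facts chevG2 g2_mem _ hP
  obtain ⟨hQ1, -, -, -⟩ := sign_facts chevG2 g2_mem _ hQ
  constructor
  · intro hpos
    rcases hQ1 with h | h
    · exact h
    · exact absurd h3 (pi_pos_neg _ _ _ _ hη' hP hpos h)
  · intro hpos
    rcases hP1 with h | h
    · exact h
    · exact absurd h3.symm (pi_pos_neg _ _ _ _ hb hQ hpos h)

theorem pi_chk : ∀ v ∈ cw, ∀ v' ∈ cw,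
    (chevG2.IsPosRoot (wPi chevG2 v' 7) ↔ chevG2.IsPosRoot (wPi chevG2 v 7)) →
    (chevG2.IsPosRoot (wPi chevG2 v' 11) ↔ chevG2.IsPosRoot (wPi chevG2 v 11)) → v = v' := by
  decide +kernel

theorem pi_pw_cw (p : Unit ⊕ F ⊕ F ⊕ (F × F)) : (pw F p).1 ∈ cw := by
  rcases p with _ | c | d | ⟨c, d⟩ <;> simp [pw, cw]

theorem pi_pw_inj (p p' : Unit ⊕ F ⊕ F ⊕ (F × F)) (h : pw F p = pw F p') : p = p' := by
  rcases p with _ | c | d | ⟨c, d⟩ <;> rcases p' with _ | c' | d' | ⟨c', d'⟩ <;>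
    simp_all [pw]

theorem pi_uMinus (p : Unit ⊕ F ⊕ F ⊕ (F × F)) :
    xGL chevG2 g2_mem' 7 (pw F p).2.1 * xGL chevG2 g2_mem' 11 (pw F p).2.2 ∈
      uMinus F chevG2 (pw F p).1 := by
  have gen : ∀ (v : List ℕ) (r : ℕ) (t : F), chevG2.IsPosRoot r →
      chevG2.IsNegRoot (wPi chevG2 v r) → xGL chevG2 g2_mem' r t ∈ uMinus F chevG2 v := by
    intro v r t h1 h2
    exact Subgroup.subset_closure ⟨r, t, h1, h2, xGL_val _ _ _ _⟩
  have one : ∀ (v : List ℕ) (r : ℕ), xGL (F := F) chevG2 g2_mem' r 0 ∈ uMinus F chevG2 v := by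
    intro v r
    rw [xGL_zero]
    exact one_mem _
  rcases p with _ | c | d | ⟨c, d⟩
  · show xGL chevG2 g2_mem' 7 (0 : F) * xGL chevG2 g2_mem' 11 (0 : F) ∈ uMinus F chevG2 []
    exact mul_mem (one _ _) (one _ _)
  · show xGL chevG2 g2_mem' 7 c * xGL chevG2 g2_mem' 11 (0 : F) ∈ uMinus F chevG2 [0]
    exact mul_mem (gen [0] 7 c (by decide) (by decide +kernel)) (one _ _)
  · show xGL chevG2 g2_mem' 7 (0 : F) * xGL chevG2 g2_mem' 11 d ∈
      uMinus F chevG2 [1, 0, 1, 0, 1]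
    exact mul_mem (one _ _) (gen [1, 0, 1, 0, 1] 11 d (by decide) (by decide +kernel))
  · show xGL chevG2 g2_mem' 7 c * xGL chevG2 g2_mem' 11 d ∈
      uMinus F chevG2 [0, 1, 0, 1, 0, 1]
    exact mul_mem (gen [0, 1, 0, 1, 0, 1] 7 c (by decide) (by decide +kernel))
      (gen [0, 1, 0, 1, 0, 1] 11 d (by decide) (by decide +kernel))

theorem psi_inj : Function.Injective (psi F) := by
  rintro ⟨⟨a, b⟩, h, p⟩ ⟨⟨a', b'⟩, h', p'⟩ e
  have hUB : chevG2.posUnipotent F ≤ chevG2.borelSubgroup F := le_sup_left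
  have hHB : chevG2.diagonalSubgroup F ≤ chevG2.borelSubgroup F := le_sup_right
  have xU : ∀ (r : ℕ) (t : F), chevG2.IsPosRoot r →
      xGL chevG2 g2_mem' r t ∈ chevG2.posUnipotent F :=
    fun r t hr => Subgroup.subset_closure ⟨r, t, hr, xGL_val _ _ _ _⟩
  have hU : ∀ a b : F, xGL chevG2 g2_mem' 7 a * xGL chevG2 g2_mem' 11 b ∈
      chevG2.posUnipotent F := fun a b => mul_mem (xU 7 a (by decide)) (xU 11 b (by decide))
  have hB : ∀ (a b : F) (h : ↥(chevG2.diagonalSubgroup F)),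
      xGL chevG2 g2_mem' 7 a * xGL chevG2 g2_mem' 11 b * (h : GL chevG2.Idx F) ∈
        chevG2.borelSubgroup F := fun a b h => mul_mem (hUB (hU a b)) (hHB h.2)
  have hv := cw_lt _ (pi_pw_cw (F := F) p)
  have hv' := cw_lt _ (pi_pw_cw (F := F) p')
  have hu := uMinus_le_nf chevG2 g2_mem _ hv (pi_uMinus (F := F) p)
  have hu' := uMinus_le_nf chevG2 g2_mem _ hv' (pi_uMinus (F := F) p')
  have e' : (xGL chevG2 g2_mem' 7 a * xGL chevG2 g2_mem' 11 b * (h : GL chevG2.Idx F)) *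
      nW F (pw F p).1 *
      (xGL chevG2 g2_mem' 7 (pw F p).2.1 * xGL chevG2 g2_mem' 11 (pw F p).2.2) =
      (xGL chevG2 g2_mem' 7 a' * xGL chevG2 g2_mem' 11 b' * (h' : GL chevG2.Idx F)) *
      nW F (pw F p').1 *
      (xGL chevG2 g2_mem' 7 (pw F p').2.1 * xGL chevG2 g2_mem' 11 (pw F p').2.2) := e
  obtain ⟨hk, hrest⟩ := bruhat_unique chevG2 g2_mem _ _ _ _ _ _ (hB a b h) (hB a' b' h')
    (nW_mem F _) (nW_mem F _) hu hu' e'
  have hvv : (pw F p).1 = (pw F p').1 :=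
    pi_chk _ (pi_pw_cw p) _ (pi_pw_cw p') (pi_sign _ _ hv hv' hk 7 (by decide))
      (pi_sign _ _ hv hv' hk 11 (by decide))
  obtain ⟨hb, hueq⟩ := hrest (by rw [hvv])
  have hmem : (xGL chevG2 g2_mem' 7 a' * xGL chevG2 g2_mem' 11 b')⁻¹ *
      (xGL chevG2 g2_mem' 7 a * xGL chevG2 g2_mem' 11 b) ∈
      chevG2.posUnipotent F ⊓ chevG2.diagonalSubgroup F := by
    refine ⟨Subgroup.mul_mem _ (Subgroup.inv_mem _ (hU a' b')) (hU a b), ?_⟩
    have : (xGL chevG2 g2_mem' 7 a' * xGL chevG2 g2_mem' 11 b')⁻¹ *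
        (xGL chevG2 g2_mem' 7 a * xGL chevG2 g2_mem' 11 b) =
        (h' : GL chevG2.Idx F) * (h : GL chevG2.Idx F)⁻¹ := by
      rw [inv_mul_eq_iff_eq_mul, ← mul_assoc, ← hb, mul_inv_cancel_right]
    rw [this]
    exact Subgroup.mul_mem _ h'.2 (Subgroup.inv_mem _ h.2)
  rw [posUnipotent_inf_diagonal chevG2 g2_mem', Subgroup.mem_bot] at hmem
  have hX : xGL chevG2 g2_mem' 7 a * xGL chevG2 g2_mem' 11 b =
      xGL chevG2 g2_mem' 7 a' * xGL chevG2 g2_mem' 11 b' := (inv_mul_eq_one.1 hmem).symm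
  have hh : (h : GL chevG2.Idx F) = h' := by
    rw [hX] at hb
    exact mul_left_cancel hb
  obtain ⟨hab1, hab2⟩ := x7_x11_inj a b a' b' hX
  obtain ⟨hcd1, hcd2⟩ := x7_x11_inj _ _ _ _ hueq
  have hp : p = p' := pi_pw_inj p p' (Prod.ext hvv (Prod.ext hcd1 hcd2))
  have hh' : h = h' := Subtype.ext hh
  rw [hab1, hab2, hp, hh']

end Cfsg.Agent.Lib.Helper25.G2c
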