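import Mathlib
import Cfsg.Agent.Lib.Helper25.G2cD

set_option autoImplicit false

/-! S4279 piece PM (filled in by helper85, job 3676): `psi` lands in the group and commutes with
`tau`. -/

namespace Cfsg.Agent.Lib.Helper25.G2c

open Cfsg Cfsg.Lie Matrix
open Cfsg.Agent.Lib.Helper8 Cfsg.Agent.Lib.Helper24 Cfsg.Agent.Lib.Helper25

variable {F : Type*} [Field F]

theorem pm_comm_mul {M : Type*} [Monoid M] (τ x y : M) (hx : τ * x = x * τ)
    (hy : τ * y = y * τ) : τ * (x * y) = (x * y) * τ := by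
  rw [← mul_assoc, hx, mul_assoc, hy, mul_assoc]

theorem pm_comm_diag (h : GL chevG2.Idx F) (hh : h ∈ chevG2.diagonalSubgroup F) :
    tau F * h = h * tau F := by
  obtain ⟨d, -, hd⟩ := diagonalSubgroup_le_gradedTorus chevG2 g2_mem' hh
  apply Units.ext
  rw [Units.val_mul, Units.val_mul, hd, tau_val, torus_mul_torus, torus_mul_torus]
  exact torus_congr chevG2 _ _ (fun s _ => mul_comm _ _)

theorem pm_tau_mat : ((tau F : GL chevG2.Idx F) : Matrix chevG2.Idx chevG2.Idx F) =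
    chevG2.nMat F 7 (-1) * chevG2.nMat F 7 (-1) := by
  rw [tau_eq_hMat, hMat_eq_nMat_mul]

theorem pm_AB : chevG2.nMat F 7 (-1) * chevG2.nMat F 7 1 = 1 :=
  Cfsg.Agent.Lib.Helper24.nMat_neg_one_mul_nMat_one chevG2 g2_mem' 7 (by decide)

theorem pm_BA : chevG2.nMat F 7 1 * chevG2.nMat F 7 (-1) = 1 :=
  _root_.mul_eq_one_comm.mp (pm_AB (F := F))

theorem pm_nw_nil : nWordMat F chevG2 [] = 1 := rfl

theorem pm_simple0 : chevG2.simple 0 = 7 := by decide

theorem pm_nw_0 : nWordMat F chevG2 [0] = chevG2.nMat F 7 1 := by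
  rw [nWordMat_cons, pm_nw_nil, Matrix.mul_one, pm_simple0]

theorem pm_N1_A : nWordMat F chevG2 [1, 0, 1, 0, 1] * chevG2.nMat F 7 (-1) =
    chevG2.nMat F 7 (-1) * nWordMat F chevG2 [1, 0, 1, 0, 1] := by
  have h := nWordMat_mul_nMat (F := F) chevG2 g2_mem [1, 0, 1, 0, 1] (by decide) 7 (by decide)
    (-1)
  have e1 : wPi chevG2 [1, 0, 1, 0, 1] 7 = 7 := by decide +kernel
  have e2 : wEta chevG2 [1, 0, 1, 0, 1] 7 = 1 := by decide +kernel
  rw [e1, e2, Int.cast_one, one_mul] at h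
  exact h

theorem pm_comm_nword (v : List ℕ) (hv : v ∈ cw) :
    ((tau F : GL chevG2.Idx F) : Matrix chevG2.Idx chevG2.Idx F) * nWordMat F chevG2 v =
      nWordMat F chevG2 v * ((tau F : GL chevG2.Idx F) : Matrix chevG2.Idx chevG2.Idx F) := by
  have hA := pm_AB (F := F)
  have hB := pm_BA (F := F)
  have hN := pm_N1_A (F := F)
  rw [pm_tau_mat]
  obtain ⟨A, hAdef⟩ : ∃ A, A = chevG2.nMat F 7 (-1) := ⟨_, rfl⟩
  obtain ⟨B, hBdef⟩ : ∃ B, B = chevG2.nMat F 7 1 := ⟨_, rfl⟩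
  obtain ⟨N, hNdef⟩ : ∃ N, N = nWordMat F chevG2 [1, 0, 1, 0, 1] := ⟨_, rfl⟩
  rw [← hAdef, ← hBdef] at hA hB
  rw [← hAdef, ← hNdef] at hN
  rw [← hAdef]
  have hAAN : A * A * N = N * (A * A) := by
    rw [← Matrix.mul_assoc N A A, hN, Matrix.mul_assoc A N A, hN, Matrix.mul_assoc]
  unfold cw at hv
  simp only [List.mem_cons, List.not_mem_nil, or_false] at hv
  rcases hv with rfl | rfl | rfl | rfl
  · rw [pm_nw_nil, Matrix.mul_one, Matrix.one_mul]
  · rw [pm_nw_0, ← hBdef]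
    rw [Matrix.mul_assoc, hA, Matrix.mul_one, ← Matrix.mul_assoc, hB, Matrix.one_mul]
  · rw [← hNdef]
    exact hAAN
  · rw [nWordMat_cons, pm_simple0, ← hBdef, ← hNdef]
    calc A * A * (B * N) = A * (A * B) * N := by simp only [Matrix.mul_assoc]
      _ = A * N := by rw [hA, Matrix.mul_one]
      _ = (B * A) * A * N := by rw [hB, Matrix.one_mul]
      _ = B * (A * A * N) := by simp only [Matrix.mul_assoc]
      _ = B * (N * (A * A)) := by rw [hAAN]
      _ = B * N * (A * A) := by simp only [Matrix.mul_assoc]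

theorem pm_comm_nw (v : List ℕ) (hv : v ∈ cw) : tau F * nW F v = nW F v * tau F := by
  apply Units.ext
  rw [Units.val_mul, Units.val_mul, nW_val F v (cw_lt v hv)]
  exact pm_comm_nword v hv

theorem pm_pw_mem (p : Unit ⊕ F ⊕ F ⊕ (F × F)) : (pw F p).1 ∈ cw := by
  rcases p with _ | c | d | ⟨c, d⟩ <;> simp [pw, cw]

theorem psi_mem (i : (F × F) × ↥(chevG2.diagonalSubgroup F) × (Unit ⊕ F ⊕ F ⊕ (F × F))) :
    psi F i ∈ chevG2.group F ∧ tau F * psi F i = psi F i * tau F := by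
  refine ⟨?_, ?_⟩
  · unfold psi
    exact Subgroup.mul_mem _ (Subgroup.mul_mem _ (Subgroup.mul_mem _ (Subgroup.mul_mem _
      (xGL_mem_group chevG2 g2_mem' 7 _) (xGL_mem_group chevG2 g2_mem' 11 _))
      (diagonalSubgroup_le_group chevG2 g2_mem' i.2.1.2))
      (monomialSubgroup_le_group chevG2 g2_mem' (nW_mem F _)))
      (Subgroup.mul_mem _ (xGL_mem_group chevG2 g2_mem' 7 _) (xGL_mem_group chevG2 g2_mem' 11 _))
  · unfold psi
    have h7 := fun t : F => tau_comm_x F 7 (Or.inl rfl) t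
    have h11 := fun t : F => tau_comm_x F 11 (Or.inr (Or.inr (Or.inl rfl))) t
    apply pm_comm_mul
    · apply pm_comm_mul
      · apply pm_comm_mul
        · apply pm_comm_mul
          · exact h7 _
          · exact h11 _
        · exact pm_comm_diag _ i.2.1.2
      · exact pm_comm_nw _ (pm_pw_mem _)
    · apply pm_comm_mul
      · exact h7 _
      · exact h11 _

end Cfsg.Agent.Lib.Helper25.G2c
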