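import Mathlib
import Cfsg.Agent.Lib.Helper25.G2cD

set_option autoImplicit false

/-! S4279 piece CB (proved by helper29): the centralizer of a torus element splits along the
Bruhat decomposition. -/

namespace Cfsg.Agent.Lib.Helper25.G2c

open Cfsg Cfsg.Lie Matrix
open Cfsg.Agent.Lib.Helper8 Cfsg.Agent.Lib.Helper24 Cfsg.Agent.Lib.Helper25

variable {F : Type*} [Field F]

/-- the diagonal subgroup is commutative -/
theorem cb_diag_comm (D : ChevalleyDatum) (hD : D ∈ chevList) (a b : GL D.Idx F)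
    (ha : a ∈ D.diagonalSubgroup F) (hb : b ∈ D.diagonalSubgroup F) : a * b = b * a := by
  obtain ⟨d, -, had⟩ := diagonalSubgroup_le_gradedTorus D hD ha
  obtain ⟨d', -, hbd⟩ := diagonalSubgroup_le_gradedTorus D hD hb
  apply Units.ext
  rw [Units.val_mul, Units.val_mul, had, hbd, torus_mul_torus, torus_mul_torus]
  apply torus_congr
  intro s _
  exact mul_comm _ _

theorem cent_bruhat (D : ChevalleyDatum)
    (hD : D ∈ [chevG2, chevB2, chevD4, chevF4, chevE6, chevE7, chevE8])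
    (τ : GL D.Idx F) (hτ : τ ∈ D.diagonalSubgroup F) (g : GL D.Idx F) (hg : g ∈ D.group F)
    (hc : τ * g = g * τ) :
    ∃ u₁ ∈ D.posUnipotent F, ∃ h ∈ D.diagonalSubgroup F, ∃ n ∈ D.monomialSubgroup F,
      ∃ u ∈ D.posUnipotent F, τ * u₁ = u₁ * τ ∧ τ * n = n * τ ∧ τ * u = u * τ ∧
        n * u * n⁻¹ ∈ D.negUnipotent F ∧ g = u₁ * h * n * u := by
  have hD' : D ∈ chevList := hD
  obtain ⟨b, hb, n, hn, u, hu, rfl⟩ := bruhat_exists D hD g hg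
  obtain ⟨d, hd, hτd⟩ := diagonalSubgroup_le_gradedTorus D hD' hτ
  have hHB : D.diagonalSubgroup F ≤ D.borelSubgroup F := le_sup_right
  have hHU : D.diagonalSubgroup F ≤ Subgroup.normalizer (D.posUnipotent F : Set (GL D.Idx F)) :=
    diagonal_le_normalizer_rootGen D hD' D.IsPosRoot (fun r hr => hr.1)
  -- `τ n τ⁻¹ n⁻¹ ∈ H`
  have hnN := monomial_le_normalizer_diagonal D hD' hn
  have hcomm : τ * n * τ⁻¹ * n⁻¹ ∈ D.diagonalSubgroup F := by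
    have h1 : n * τ⁻¹ * n⁻¹ ∈ D.diagonalSubgroup F :=
      (Subgroup.mem_normalizer_iff.mp hnN τ⁻¹).mp (inv_mem hτ)
    have e : τ * n * τ⁻¹ * n⁻¹ = τ * (n * τ⁻¹ * n⁻¹) := by group
    rw [e]
    exact mul_mem hτ h1
  have hb' : τ * b * τ⁻¹ * (τ * n * τ⁻¹ * n⁻¹) ∈ D.borelSubgroup F :=
    mul_mem (mul_mem (mul_mem (hHB hτ) hb) (inv_mem (hHB hτ))) (hHB hcomm)
  have hu' : τ * u * τ⁻¹ ∈ Subgroup.closure {x : GL D.Idx F | ∃ (r : ℕ) (t : F), D.IsPosRoot r ∧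
      (D.rootSubgroup F r).map (MulAut.conj n).toMonoidHom ≤ D.negUnipotent F ∧
      (x : Matrix D.Idx D.Idx F) = D.x F r t} := by
    apply conj_closure_le _ _ τ _ u hu
    rintro x ⟨r, t, hr, hmap, hx⟩
    apply Subgroup.subset_closure
    refine ⟨r, d r * t, hr, hmap, ?_⟩
    rw [Units.val_mul, Units.val_mul, hτd, hx, torus_mul_x D d hd r hr.1 t, ← hτd, mul_assoc,
      ← Units.val_mul, mul_inv_cancel, Units.val_one, mul_one]
  have hfix : τ * (b * n * u) * τ⁻¹ = b * n * u := by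
    rw [hc]
    group
  have e : b * n * u = τ * b * τ⁻¹ * (τ * n * τ⁻¹ * n⁻¹) * n * (τ * u * τ⁻¹) := by
    have e1 : τ * b * τ⁻¹ * (τ * n * τ⁻¹ * n⁻¹) * n * (τ * u * τ⁻¹) = τ * (b * n * u) * τ⁻¹ := by
      group
    rw [e1, hfix]
  obtain ⟨-, huniq⟩ := bruhat_unique D hD b (τ * b * τ⁻¹ * (τ * n * τ⁻¹ * n⁻¹)) n n u (τ * u * τ⁻¹)
    hb hb' hn hn hu hu' e
  obtain ⟨hbb, huu⟩ := huniq rfl
  obtain ⟨u₁, hu₁, h₁, hh₁, rfl⟩ := mem_sup_of_le_normalizer _ _ hHU b hb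
  -- split `hbb`
  have hu₂ : τ * u₁ * τ⁻¹ ∈ D.posUnipotent F :=
    (Subgroup.mem_normalizer_iff.mp (hHU hτ) u₁).mp hu₁
  have hτh : τ * h₁ * τ⁻¹ = h₁ := by
    rw [cb_diag_comm D hD' τ h₁ hτ hh₁, mul_assoc, mul_inv_cancel, mul_one]
  have hbb' : u₁ * h₁ = (τ * u₁ * τ⁻¹) * (h₁ * (τ * n * τ⁻¹ * n⁻¹)) := by
    have e2 : τ * (u₁ * h₁) * τ⁻¹ * (τ * n * τ⁻¹ * n⁻¹) =
        (τ * u₁ * τ⁻¹) * ((τ * h₁ * τ⁻¹) * (τ * n * τ⁻¹ * n⁻¹)) := by group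
    rw [e2, hτh] at hbb
    exact hbb
  have hmem : (τ * u₁ * τ⁻¹)⁻¹ * u₁ ∈ D.posUnipotent F ⊓ D.diagonalSubgroup F := by
    refine Subgroup.mem_inf.mpr ⟨mul_mem (inv_mem hu₂) hu₁, ?_⟩
    have e3 : (τ * u₁ * τ⁻¹)⁻¹ * u₁ = (h₁ * (τ * n * τ⁻¹ * n⁻¹)) * h₁⁻¹ := by
      rw [inv_mul_eq_iff_eq_mul, ← mul_assoc, ← mul_assoc, ← mul_assoc, eq_mul_inv_iff_mul_eq]
      rw [hbb']
      group
    rw [e3]
    exact mul_mem (mul_mem hh₁ hcomm) (inv_mem hh₁)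
  rw [posUnipotent_inf_diagonal D hD', Subgroup.mem_bot] at hmem
  have hu₁eq : τ * u₁ * τ⁻¹ = u₁ := by
    have := inv_mul_eq_one.mp hmem
    exact this
  have hncomm : τ * n * τ⁻¹ * n⁻¹ = 1 := by
    rw [hu₁eq] at hbb'
    have h3 := mul_left_cancel hbb'
    exact (mul_eq_left.mp h3.symm)
  refine ⟨u₁, hu₁, h₁, hh₁, n, hn, u, ?_, ?_, ?_, ?_, ?_, rfl⟩
  · refine Subgroup.closure_mono ?_ hu
    rintro x ⟨r, t, hr, -, hx⟩
    exact ⟨r, t, hr, hx⟩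
  · calc τ * u₁ = τ * u₁ * τ⁻¹ * τ := by group
      _ = u₁ * τ := by rw [hu₁eq]
  · calc τ * n = τ * n * τ⁻¹ * n⁻¹ * (n * τ) := by group
      _ = n * τ := by rw [hncomm, one_mul]
  · calc τ * u = τ * u * τ⁻¹ * τ := by group
      _ = u * τ := by rw [← huu]
  · apply conj_closure_le _ _ n _ u hu
    rintro x ⟨r, t, hr, hmap, hx⟩
    exact hmap ⟨x, mem_rootSubgroup_of_val D r x t hx, rfl⟩

end Cfsg.Agent.Lib.Helper25.G2c
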