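import Mathlib
import Cfsg.Agent.Lib.Helper25.G2cD

set_option autoImplicit false

/-! S4279 piece CN (the Weyl group elements fixing the character of tau). -/

namespace Cfsg.Agent.Lib.Helper25.G2c

open Cfsg Cfsg.Lie Matrix
open Cfsg.Agent.Lib.Helper8 Cfsg.Agent.Lib.Helper24 Cfsg.Agent.Lib.Helper25

variable {F : Type*} [Field F]

theorem cn_chk : ∀ v ∈ allWords g2Levels,
    (∀ s < 12, (s ∈ [0, 4, 7, 11] ↔ wPi chevG2 v s ∈ [0, 4, 7, 11])) → v ∈ cw := by
  decide +kernel

theorem cn_chi_iff (h2 : (2 : F) ≠ 0) (s : ℕ) (hs : s < 12) :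
    chi F s = 1 ↔ s ∈ [0, 4, 7, 11] := by
  constructor
  · intro h
    by_contra hne
    have hmem : s ∈ [1, 2, 3, 5, 6, 8, 9, 10] := by
      interval_cases s <;> simp_all
    rw [chi_odd F s hmem] at h
    exact h2 (by linear_combination -h)
  · intro h
    apply chi_even
    simp only [List.mem_cons, List.not_mem_nil, or_false] at h
    rcases h with rfl | rfl | rfl | rfl <;> simp

theorem cent_N (h2 : (2 : F) ≠ 0) (n : GL chevG2.Idx F) (hn : n ∈ chevG2.monomialSubgroup F)
    (hc : tau F * n = n * tau F) :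
    ∃ h ∈ chevG2.diagonalSubgroup F, ∃ v ∈ cw, n = h * nW F v := by
  obtain ⟨v, hv, hvr, h, hh, hval⟩ := inv_chev_word chevG2 g2_mem CoxeterMatrix.G₂ rfl weyl_G2
    g2ML g2Cart g2Levels rfl (by intro i j; fin_cases i <;> fin_cases j <;> rfl)
    chainOK_G2 posChk_G2 n hn
  have hnv : n = h * nW F v := by
    apply Units.ext
    rw [Units.val_mul, nW_val F v hvr, hval]
  refine ⟨h, hh, v, ?_, hnv⟩
  subst hnv
  obtain ⟨d, hd, hdval⟩ := diagonalSubgroup_le_gradedTorus chevG2 g2_mem' hh
  have hth : tau F * h = h * tau F := by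
    apply Units.ext
    rw [Units.val_mul, Units.val_mul, hdval, tau_val, torus_mul_torus, torus_mul_torus]
    apply torus_congr
    intro s _
    exact mul_comm _ _
  have htn : tau F * nW F v = nW F v * tau F := by
    have e : h * (tau F * nW F v) = h * (nW F v * tau F) := by
      calc h * (tau F * nW F v) = (h * tau F) * nW F v := by rw [mul_assoc]
        _ = (tau F * h) * nW F v := by rw [hth]
        _ = tau F * (h * nW F v) := by rw [mul_assoc]
        _ = h * nW F v * tau F := hc
        _ = h * (nW F v * tau F) := by rw [mul_assoc]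
    exact mul_left_cancel e
  have htn' : ((tau F : GL chevG2.Idx F) : Matrix chevG2.Idx chevG2.Idx F) * nWordMat F chevG2 v =
      nWordMat F chevG2 v * ((tau F : GL chevG2.Idx F) : Matrix chevG2.Idx chevG2.Idx F) := by
    have := congrArg (fun g : GL chevG2.Idx F => (g : Matrix chevG2.Idx chevG2.Idx F)) htn
    simpa only [Units.val_mul, nW_val F v hvr] using this
  have key : ∀ s < 12, chi F (wPi chevG2 v s) = chi F s := by
    intro s hs
    have hs' : wPi chevG2 v s < chevG2.nroots := wPi_lt chevG2 g2_mem v hvr s hs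
    have hA : ((tau F : GL chevG2.Idx F) : Matrix chevG2.Idx chevG2.Idx F) * nWordMat F chevG2 v *
        chevG2.x F s 1 =
        chevG2.x F (wPi chevG2 v s) (chi F (wPi chevG2 v s) *
          (((wEta chevG2 v s : ℤ) : F) * 1)) *
        (((tau F : GL chevG2.Idx F) : Matrix chevG2.Idx chevG2.Idx F) * nWordMat F chevG2 v) := by
      rw [Matrix.mul_assoc, nWordMat_conj chevG2 g2_mem v hvr s hs 1, ← Matrix.mul_assoc,
        tau_x F _ hs', Matrix.mul_assoc]
    have hB : nWordMat F chevG2 v * ((tau F : GL chevG2.Idx F) : Matrix chevG2.Idx chevG2.Idx F) *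
        chevG2.x F s 1 =
        chevG2.x F (wPi chevG2 v s) (((wEta chevG2 v s : ℤ) : F) * (chi F s * 1)) *
        (nWordMat F chevG2 v * ((tau F : GL chevG2.Idx F) : Matrix chevG2.Idx chevG2.Idx F)) := by
      rw [Matrix.mul_assoc, tau_x F s hs, ← Matrix.mul_assoc,
        nWordMat_conj chevG2 g2_mem v hvr s hs _, Matrix.mul_assoc]
    rw [htn'] at hA
    rw [hB] at hA
    have hunit : nWordMat F chevG2 v *
        ((tau F : GL chevG2.Idx F) : Matrix chevG2.Idx chevG2.Idx F) =
        ((nW F v * tau F : GL chevG2.Idx F) : Matrix chevG2.Idx chevG2.Idx F) := by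
      rw [Units.val_mul, nW_val F v hvr]
    rw [hunit] at hA
    have hcancel : chevG2.x F (wPi chevG2 v s) (((wEta chevG2 v s : ℤ) : F) * (chi F s * 1)) =
        chevG2.x F (wPi chevG2 v s) (chi F (wPi chevG2 v s) *
          (((wEta chevG2 v s : ℤ) : F) * 1)) := by
      have := congrArg (fun M : Matrix chevG2.Idx chevG2.Idx F =>
        M * (((nW F v * tau F)⁻¹ : GL chevG2.Idx F) : Matrix chevG2.Idx chevG2.Idx F)) hA
      simpa only [Matrix.mul_assoc, Units.mul_inv, Matrix.mul_one] using this
    have h3 := Helper25.x_inj chevG2 g2_mem _ hs' _ _ hcancel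
    rcases wEta_cases chevG2 v s with h4 | h4
    · rw [h4] at h3
      push_cast at h3
      linear_combination -h3
    · rw [h4] at h3
      push_cast at h3
      linear_combination h3
  apply cn_chk v hv
  intro s hs
  rw [← cn_chi_iff h2 s hs, ← cn_chi_iff h2 (wPi chevG2 v s) (wPi_lt chevG2 g2_mem v hvr s hs),
    key s hs]

end Cfsg.Agent.Lib.Helper25.G2c
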