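import Mathlib
import Cfsg.Agent.Lib.Helper25.G2cD

set_option autoImplicit false

/-! S4279 piece CU (proved by helper29): the centralizer of `tau` in `U` is `X_7 X_11`. -/

namespace Cfsg.Agent.Lib.Helper25.G2c

open Cfsg Cfsg.Lie Matrix
open Cfsg.Agent.Lib.Helper8 Cfsg.Agent.Lib.Helper24 Cfsg.Agent.Lib.Helper25

variable {F : Type*} [Field F]

theorem cu_aux1 (t : ℕ → F) (L : List ℕ) (hL : ∀ r ∈ L, r < chevG2.nroots) :
    ((tau F : GL chevG2.Idx F) : Matrix chevG2.Idx chevG2.Idx F) *
        chevG2.wordMat F (L.map fun r => (r, t r)) =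
      chevG2.wordMat F (L.map fun r => (r, chi F r * t r)) *
        ((tau F : GL chevG2.Idx F) : Matrix chevG2.Idx chevG2.Idx F) := by
  induction L with
  | nil => simp [ChevalleyDatum.wordMat]
  | cons r L ih =>
    have hr : r < chevG2.nroots := hL r List.mem_cons_self
    have ih' := ih (fun s hs => hL s (List.mem_cons_of_mem _ hs))
    unfold ChevalleyDatum.wordMat at ih' ⊢
    simp only [List.map_cons, List.prod_cons]
    rw [← mul_assoc, tau_x F r hr, mul_assoc, ih', mul_assoc]

theorem cent_U (h2 : (2 : F) ≠ 0) (u : GL chevG2.Idx F) (hu : u ∈ chevG2.posUnipotent F)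
    (hc : tau F * u = u * tau F) :
    ∃ a b : F, u = xGL chevG2 g2_mem' 7 a * xGL chevG2 g2_mem' 11 b := by
  obtain ⟨hex, hall⟩ := unique_product_all (F := F) chevG2 g2_mem'
  obtain ⟨t, ⟨ht0, htu⟩, htuniq⟩ := hex u hu
  have hp : chevG2.posRoots = [6, 7, 8, 9, 10, 11] := by decide
  have hpos : ∀ r ∈ chevG2.posRoots, r < chevG2.nroots := by
    rw [hp]
    decide
  have h1 := cu_aux1 t chevG2.posRoots hpos
  rw [← htu] at h1
  have hc' : ((tau F : GL chevG2.Idx F) : Matrix chevG2.Idx chevG2.Idx F) *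
      (u : Matrix chevG2.Idx chevG2.Idx F) =
      (u : Matrix chevG2.Idx chevG2.Idx F) *
        ((tau F : GL chevG2.Idx F) : Matrix chevG2.Idx chevG2.Idx F) := by
    have h0 := congrArg Units.val hc
    rw [Units.val_mul, Units.val_mul] at h0
    exact h0
  rw [hc'] at h1
  have h5 : ((tau F : GL chevG2.Idx F) : Matrix chevG2.Idx chevG2.Idx F) *
      ((tau F : GL chevG2.Idx F) : Matrix chevG2.Idx chevG2.Idx F) = 1 := tau_aux F
  have h3 : (u : Matrix chevG2.Idx chevG2.Idx F) =
      chevG2.wordMat F (chevG2.posRoots.map fun r => (r, chi F r * t r)) := by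
    have h4 := congrArg (· * ((tau F : GL chevG2.Idx F) : Matrix chevG2.Idx chevG2.Idx F)) h1
    simp only [mul_assoc] at h4
    rw [h5, mul_one, mul_one] at h4
    exact h4
  have ht' : (fun r => chi F r * t r) = t := by
    apply htuniq
    refine ⟨?_, h3⟩
    intro r hr
    show chi F r * t r = 0
    rw [ht0 r hr, mul_zero]
  have hz : ∀ r ∈ [6, 8, 9, 10], t r = 0 := by
    intro r hr
    have h6 : chi F r * t r = t r := congrFun ht' r
    have h7 : chi F r = -1 := by
      apply chi_odd F r
      simp only [List.mem_cons, List.not_mem_nil, or_false] at hr ⊢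
      omega
    rw [h7] at h6
    have h8 : (2 : F) * t r = 0 := by linear_combination -h6
    exact (mul_eq_zero.mp h8).resolve_left h2
  refine ⟨t 7, t 11, ?_⟩
  apply Units.ext
  rw [htu, Units.val_mul, xGL_val, xGL_val, hp]
  unfold ChevalleyDatum.wordMat
  simp only [List.map_cons, List.map_nil, List.prod_cons, List.prod_nil]
  rw [hz 6 (by simp), hz 8 (by simp), hz 9 (by simp), hz 10 (by simp)]
  simp only [Helper24.x_zero, one_mul, mul_one]

end Cfsg.Agent.Lib.Helper25.G2c
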