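import Mathlib
import Cfsg.Agent.Lib.Helper25.G2cD
import Cfsg.Agent.Lib.Helper25.G2cXXI

set_option autoImplicit false

/-! S4279 piece NG (proof by helper39, compiled by helper25). -/

namespace Cfsg.Agent.Lib.Helper25.G2c

open Cfsg Cfsg.Lie Matrix
open Cfsg.Agent.Lib.Helper8 Cfsg.Agent.Lib.Helper24 Cfsg.Agent.Lib.Helper25

variable {F : Type*} [Field F]

theorem cent_neg (h : GL chevG2.Idx F) (hh : h ∈ chevG2.diagonalSubgroup F) (v : List ℕ)
    (hv : v ∈ cw) (c d : F)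
    (hneg : (h * nW F v) * (xGL chevG2 g2_mem' 7 c * xGL chevG2 g2_mem' 11 d) * (h * nW F v)⁻¹ ∈
      chevG2.negUnipotent F) :
    ∃ p : Unit ⊕ F ⊕ F ⊕ (F × F), pw F p = (v, c, d) := by
  -- `H` normalizes `U⁻`
  have hnorm := diagonal_le_normalizer_rootGen (F := F) chevG2 g2_mem' chevG2.IsNegRoot
    (fun r hr => hr.1)
  have hy : nW F v * (xGL chevG2 g2_mem' 7 c * xGL chevG2 g2_mem' 11 d) * (nW F v)⁻¹ ∈
      chevG2.negUnipotent F := by
    have h1 : h⁻¹ ∈ Subgroup.normalizer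
        (rootGen F chevG2 chevG2.IsNegRoot : Set (GL chevG2.Idx F)) :=
      hnorm ((chevG2.diagonalSubgroup F).inv_mem hh)
    have h2 : h⁻¹ * ((h * nW F v) * (xGL chevG2 g2_mem' 7 c * xGL chevG2 g2_mem' 11 d) *
        (h * nW F v)⁻¹) * h⁻¹⁻¹ ∈ chevG2.negUnipotent F :=
      (Subgroup.mem_normalizer_iff.mp h1 _).mp hneg
    have e : nW F v * (xGL chevG2 g2_mem' 7 c * xGL chevG2 g2_mem' 11 d) * (nW F v)⁻¹ =
        h⁻¹ * ((h * nW F v) * (xGL chevG2 g2_mem' 7 c * xGL chevG2 g2_mem' 11 d) *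
        (h * nW F v)⁻¹) * h⁻¹⁻¹ := by group
    rw [e]
    exact h2
  have hconj : ∀ (s : ℕ) (_ : s < chevG2.nroots) (t : F),
      nW F v * xGL chevG2 g2_mem' s t * (nW F v)⁻¹ =
        xGL chevG2 g2_mem' (wPi chevG2 v s) (((wEta chevG2 v s : ℤ) : F) * t) := by
    intro s hs t
    rw [mul_inv_eq_iff_eq_mul]
    apply Units.ext
    rw [Units.val_mul, Units.val_mul, xGL_val, xGL_val, nW_val F v (cw_lt v hv)]
    exact nWordMat_conj chevG2 g2_mem v (cw_lt v hv) s hs t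
  have hy' : xGL chevG2 g2_mem' (wPi chevG2 v 7) (((wEta chevG2 v 7 : ℤ) : F) * c) *
      xGL chevG2 g2_mem' (wPi chevG2 v 11) (((wEta chevG2 v 11 : ℤ) : F) * d) ∈
      chevG2.negUnipotent F := by
    rw [← hconj 7 (by decide) c, ← hconj 11 (by decide) d]
    have e : nW F v * xGL chevG2 g2_mem' 7 c * (nW F v)⁻¹ *
        (nW F v * xGL chevG2 g2_mem' 11 d * (nW F v)⁻¹) =
        nW F v * (xGL chevG2 g2_mem' 7 c * xGL chevG2 g2_mem' 11 d) * (nW F v)⁻¹ := by group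
    rw [e]
    exact hy
  -- a positive root element in `U⁻` is trivial
  have hpn : ∀ (s : ℕ) (t : F), chevG2.IsPosRoot s →
      xGL chevG2 g2_mem' s t ∈ chevG2.negUnipotent F → t = 0 := by
    intro s t hs hmem
    have h1 : xGL chevG2 g2_mem' s t ∈ chevG2.posUnipotent F :=
      Subgroup.subset_closure ⟨s, t, hs, xGL_val chevG2 g2_mem' s t⟩
    have h2 : xGL chevG2 g2_mem' s t ∈ chevG2.borelSubgroup F ⊓ chevG2.negUnipotent F :=
      ⟨(le_sup_left : chevG2.posUnipotent F ≤ chevG2.borelSubgroup F) h1, hmem⟩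
    rw [borel_inf_negUnipotent chevG2 g2_mem', Subgroup.mem_bot] at h2
    have h3 : chevG2.x F s t = chevG2.x F s 0 := by
      rw [Helper24.x_zero, ← xGL_val chevG2 g2_mem' s t, h2, Units.val_one]
    exact Helper25.x_inj chevG2 g2_mem s hs.1 t 0 h3
  have hnegmem : ∀ (s : ℕ) (t : F), chevG2.IsNegRoot s →
      xGL chevG2 g2_mem' s t ∈ chevG2.negUnipotent F := by
    intro s t hs
    exact Subgroup.subset_closure ⟨s, t, hs, xGL_val chevG2 g2_mem' s t⟩
  have hp7 : chevG2.IsPosRoot 7 := by decide +kernel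
  have hp11 : chevG2.IsPosRoot 11 := by decide +kernel
  have hn4 : chevG2.IsNegRoot 4 := by decide +kernel
  have hn0 : chevG2.IsNegRoot 0 := by decide +kernel
  unfold cw at hv
  simp only [List.mem_cons, List.not_mem_nil, or_false] at hv
  rcases hv with rfl | rfl | rfl | rfl
  · -- v = []
    have e1 : wPi chevG2 [] 7 = 7 := rfl
    have e2 : wPi chevG2 [] 11 = 11 := rfl
    have e3 : wEta chevG2 [] 7 = 1 := rfl
    have e4 : wEta chevG2 [] 11 = 1 := rfl
    rw [e1, e2, e3, e4, Int.cast_one, one_mul, one_mul] at hy'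
    have h1 : xGL chevG2 g2_mem' 7 c * xGL chevG2 g2_mem' 11 d ∈ chevG2.posUnipotent F :=
      (chevG2.posUnipotent F).mul_mem
        (Subgroup.subset_closure ⟨7, c, hp7, xGL_val chevG2 g2_mem' 7 c⟩)
        (Subgroup.subset_closure ⟨11, d, hp11, xGL_val chevG2 g2_mem' 11 d⟩)
    have h2 : xGL chevG2 g2_mem' 7 c * xGL chevG2 g2_mem' 11 d ∈
        chevG2.borelSubgroup F ⊓ chevG2.negUnipotent F :=
      ⟨(le_sup_left : chevG2.posUnipotent F ≤ chevG2.borelSubgroup F) h1, hy'⟩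
    rw [borel_inf_negUnipotent chevG2 g2_mem', Subgroup.mem_bot] at h2
    have h3 : xGL chevG2 g2_mem' 7 c * xGL chevG2 g2_mem' 11 d =
        xGL chevG2 g2_mem' 7 0 * xGL chevG2 g2_mem' 11 0 := by
      rw [h2, xGL_zero, xGL_zero, one_mul]
    obtain ⟨hc, hd⟩ := x7_x11_inj c d 0 0 h3
    refine ⟨Sum.inl (), ?_⟩
    rw [hc, hd]
    rfl
  · -- v = [0]
    have e1 : wPi chevG2 [0] 7 = 4 := by decide +kernel
    have e2 : wPi chevG2 [0] 11 = 11 := by decide +kernel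
    have e4 : wEta chevG2 [0] 11 = 1 := by decide +kernel
    rw [e1, e2, e4, Int.cast_one, one_mul] at hy'
    have hB : xGL chevG2 g2_mem' 11 d ∈ chevG2.negUnipotent F := by
      have h1 := (chevG2.negUnipotent F).mul_mem
        ((chevG2.negUnipotent F).inv_mem (hnegmem 4 (((wEta chevG2 [0] 7 : ℤ) : F) * c) hn4)) hy'
      rwa [inv_mul_cancel_left] at h1
    have hd : d = 0 := hpn 11 d hp11 hB
    refine ⟨Sum.inr (Sum.inl c), ?_⟩
    rw [hd]
    rfl
  · -- v = [1, 0, 1, 0, 1]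
    have e1 : wPi chevG2 [1, 0, 1, 0, 1] 7 = 7 := by decide +kernel
    have e2 : wPi chevG2 [1, 0, 1, 0, 1] 11 = 0 := by decide +kernel
    have e3 : wEta chevG2 [1, 0, 1, 0, 1] 7 = 1 := by decide +kernel
    rw [e1, e2, e3, Int.cast_one, one_mul] at hy'
    have hA : xGL chevG2 g2_mem' 7 c ∈ chevG2.negUnipotent F := by
      have h1 := (chevG2.negUnipotent F).mul_mem hy'
        ((chevG2.negUnipotent F).inv_mem
          (hnegmem 0 (((wEta chevG2 [1, 0, 1, 0, 1] 11 : ℤ) : F) * d) hn0))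
      rwa [mul_inv_cancel_right] at h1
    have hc : c = 0 := hpn 7 c hp7 hA
    refine ⟨Sum.inr (Sum.inr (Sum.inl d)), ?_⟩
    rw [hc]
    rfl
  · -- v = [0, 1, 0, 1, 0, 1]
    exact ⟨Sum.inr (Sum.inr (Sum.inr (c, d))), rfl⟩

end Cfsg.Agent.Lib.Helper25.G2c
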