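import Mathlib
import Cfsg.Agent.Lib.Helper25.G2cD
import Cfsg.Agent.Lib.Helper25.G2cXCB
import Cfsg.Agent.Lib.Helper25.G2cXCU
import Cfsg.Agent.Lib.Helper25.G2cXCN
import Cfsg.Agent.Lib.Helper25.G2cXNG

set_option autoImplicit false

/-! S4279 piece PS (assembly of the pieces CB, CU, CN, NG). -/

namespace Cfsg.Agent.Lib.Helper25.G2c

open Cfsg Cfsg.Lie Matrix
open Cfsg.Agent.Lib.Helper8 Cfsg.Agent.Lib.Helper24 Cfsg.Agent.Lib.Helper25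

variable {F : Type*} [Field F]

theorem psi_surj (h2 : (2 : F) ≠ 0) (g : GL chevG2.Idx F) (hg : g ∈ chevG2.group F)
    (hc : tau F * g = g * tau F) : ∃ i, psi F i = g := by
  obtain ⟨u₁, hu₁, h, hh, n, hn, u, hu, c1, c2, c3, hneg, rfl⟩ :=
    cent_bruhat chevG2 g2_mem (tau F) (tau_mem_diag F) g hg hc
  obtain ⟨a, b, rfl⟩ := cent_U h2 u₁ hu₁ c1
  obtain ⟨h', hh', v, hv, rfl⟩ := cent_N h2 n hn c2
  obtain ⟨c, d, rfl⟩ := cent_U h2 u hu c3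
  obtain ⟨p, hp⟩ := cent_neg h' hh' v hv c d hneg
  refine ⟨((a, b), ⟨h * h', mul_mem hh hh'⟩, p), ?_⟩
  unfold psi
  rw [hp]
  simp only [mul_assoc]

end Cfsg.Agent.Lib.Helper25.G2c
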