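import Mathlib
import Cfsg.Agent.Lib.Helper25.G2cD
import Cfsg.Agent.Lib.Helper25.G2cXPM
import Cfsg.Agent.Lib.Helper25.G2cXPI
import Cfsg.Agent.Lib.Helper25.G2cXPS

set_option autoImplicit false

/-! S4279 piece CT (helper82): the order of the centralizer of `tau`, assembled from the pieces
PM, PI, PS (`psi_mem`, `psi_inj`, `psi_surj`) and `card_diagonal_G2`. -/

namespace Cfsg.Agent.Lib.Helper25.G2c

open Cfsg Cfsg.Lie Matrix
open Cfsg.Agent.Lib.Helper8 Cfsg.Agent.Lib.Helper24 Cfsg.Agent.Lib.Helper25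

variable {F : Type*} [Field F]

/-- a parametrisation of the centralizer of an element of a subgroup -/
theorem ct_card_general {G : Type*} [Group G] (Gp : Subgroup G) (t : G) (ht : t ∈ Gp)
    {I : Type*} (ψ : I → G) (hmem : ∀ i, ψ i ∈ Gp ∧ t * ψ i = ψ i * t)
    (hinj : Function.Injective ψ) (hsurj : ∀ g, g ∈ Gp → t * g = g * t → ∃ i, ψ i = g) :
    Nat.card ↥(Subgroup.centralizer ({(⟨t, ht⟩ : ↥Gp)} : Set ↥Gp)) = Nat.card I := by
  have hmemC : ∀ i, (⟨ψ i, (hmem i).1⟩ : ↥Gp) ∈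
      Subgroup.centralizer ({(⟨t, ht⟩ : ↥Gp)} : Set ↥Gp) := by
    intro i
    rw [Subgroup.mem_centralizer_iff]
    intro y hy
    rw [Set.mem_singleton_iff] at hy
    subst hy
    exact Subtype.ext (hmem i).2
  have hbij : Function.Bijective
      (fun i : I => (⟨⟨ψ i, (hmem i).1⟩, hmemC i⟩ :
        ↥(Subgroup.centralizer ({(⟨t, ht⟩ : ↥Gp)} : Set ↥Gp)))) := by
    constructor
    · intro i j hij
      apply hinj
      exact congrArg (fun z : ↥(Subgroup.centralizer ({(⟨t, ht⟩ : ↥Gp)} : Set ↥Gp)) =>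
        ((z : ↥Gp) : G)) hij
    · intro x
      have hx := Subgroup.mem_centralizer_iff.mp x.2 ⟨t, ht⟩ (Set.mem_singleton _)
      have hx' : t * ((x : ↥Gp) : G) = ((x : ↥Gp) : G) * t := congrArg Subtype.val hx
      obtain ⟨i, hi⟩ := hsurj ((x : ↥Gp) : G) (x : ↥Gp).2 hx'
      exact ⟨i, Subtype.ext (Subtype.ext hi)⟩
  exact (Nat.card_congr (Equiv.ofBijective _ hbij)).symm

theorem ct_arith (q : ℕ) (hq : 2 ≤ q) :
    q * q * ((q - 1) ^ 2 * (1 + (q + (q + q * q)))) = q ^ 2 * (q ^ 2 - 1) ^ 2 := by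
  obtain ⟨k, rfl⟩ : ∃ k, q = k + 1 := ⟨q - 1, by omega⟩
  have h1 : k + 1 - 1 = k := by omega
  have h2 : (k + 1) ^ 2 - 1 = k * (k + 2) := by
    have : (k + 1) ^ 2 = k * (k + 2) + 1 := by ring
    omega
  rw [h1, h2]
  ring

theorem cent_card [Fintype F] (h2 : (2 : F) ≠ 0) :
    Nat.card ↥(Subgroup.centralizer
      ({(⟨tau F, tau_mem F⟩ : ↥(chevG2.group F))} : Set ↥(chevG2.group F))) =
      Fintype.card F ^ 2 * (Fintype.card F ^ 2 - 1) ^ 2 := by
  classical
  rw [ct_card_general (chevG2.group F) (tau F) (tau_mem F) (psi F) psi_mem psi_inj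
    (fun g hg hc => psi_surj h2 g hg hc)]
  have hH : Nat.card ↥(chevG2.diagonalSubgroup F) = (Fintype.card F - 1) ^ 2 := by
    have h := card_diagonal_G2 (F := F)
    rw [one_mul] at h
    exact h
  have hq : 2 ≤ Fintype.card F := Fintype.one_lt_card
  rw [Nat.card_prod, Nat.card_prod, Nat.card_prod, Nat.card_sum, Nat.card_sum, Nat.card_sum,
    Nat.card_prod, Nat.card_eq_fintype_card (α := Unit), Fintype.card_unit, hH,
    Nat.card_eq_fintype_card (α := F)]
  exact ct_arith (Fintype.card F) hq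

end Cfsg.Agent.Lib.Helper25.G2c
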