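import Mathlib
import Cfsg.Agent.Lib.Helper8.Cox
import Cfsg.Agent.Lib.Helper24.ChevCols
import Cfsg.Agent.Lib.Helper24.ChevBorel
import Cfsg.Agent.Lib.Helper24.ChevTorus
import Cfsg.Agent.Lib.Helper24.HDiagAll
import Cfsg.Agent.Lib.Helper24.UProdA

set_option autoImplicit false

/-! S4279 piece LI: the root `SL₂`-homomorphisms of the roots `7` and `11` of `G₂` are injective.

(The imports are a sub-closure of `Cfsg.Agent.Lib.Helper25.G2cD`, so that the file builds without
the full Chevalley chain; nothing of `G2cD` itself is used.) -/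

namespace Cfsg.Agent.Lib.Helper25.G2c

open Cfsg Cfsg.Lie Matrix
open Cfsg.Agent.Lib.Helper8 Cfsg.Agent.Lib.Helper24 Cfsg.Agent.Lib.Helper25

variable {F : Type*} [Field F]

theorem li_g2_mem : chevG2 ∈ chevList := by simp [chevList]

/-- a root element equal to `1` has parameter `0` -/
theorem li_x_eq_one (r : ℕ) (hr : r < chevG2.nroots) (hn : chevG2.neg r < chevG2.nroots)
    (hne : chevG2.neg r ≠ r) (c : F) (h : chevG2.x F r c = 1) : c = 0 := by
  have e := congrFun (congrArg
    (fun A : Matrix chevG2.Idx chevG2.Idx F => A *ᵥ rv F chevG2 (chevG2.neg r)) h)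
    (Sum.inr ⟨r, hr⟩)
  beta_reduce at e
  rw [x_mulVec_rv_neg chevG2 r hr c hn hne, Matrix.one_mulVec] at e
  have e1 : rv F chevG2 (chevG2.neg r) (Sum.inr ⟨r, hr⟩) = 0 := by simp [rv, hne.symm]
  have e2 : rv F chevG2 r (Sum.inr ⟨r, hr⟩) = 1 := by simp [rv]
  simp only [Pi.sub_apply, Pi.add_apply, Pi.smul_apply, sum_range_hv, smul_eq_mul, e1, e2] at e
  simpa using e

/-- `h_r(t)` as an invertible matrix -/
theorem li_exists_hGL (r : ℕ) (hr : r < chevG2.nroots) (t : F) (ht : t ≠ 0) :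
    ∃ g : GL chevG2.Idx F, (g : Matrix chevG2.Idx chevG2.Idx F) = chevG2.hMat F r t := by
  have hD : chevG2 ∈ chevList := li_g2_mem
  have h1 : ∀ t : F, t ≠ 0 → chevG2.hMat F r t * chevG2.hMat F r t⁻¹ = 1 := by
    intro t ht
    rw [hMat_eq_torus chevG2 hD r hr t ht, hMat_eq_torus chevG2 hD r hr t⁻¹ (inv_ne_zero ht),
      torus_mul_torus, ← torus_one (F := F) chevG2]
    apply torus_congr
    intro s _
    rw [_root_.inv_zpow]
    exact mul_inv_cancel₀ (zpow_ne_zero _ ht)
  refine ⟨⟨chevG2.hMat F r t, chevG2.hMat F r t⁻¹, h1 t ht, ?_⟩, rfl⟩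
  have := h1 t⁻¹ (inv_ne_zero ht)
  rwa [inv_inv] at this

theorem li_torus_inj (d d' : ℕ → F) (h : torus F chevG2 d = torus F chevG2 d')
    (s : ℕ) (hs : s < chevG2.nroots) : d s = d' s := by
  have := congrFun (congrFun h (Sum.inr ⟨s, hs⟩)) (Sum.inr ⟨s, hs⟩)
  simpa [torus] using this

theorem sl2_inj (r : ℕ) (hr : r = 7 ∨ r = 11)
    (φ : Matrix.SpecialLinearGroup (Fin 2) F →* GL chevG2.Idx F)
    (hφ : ∀ (g : Matrix.SpecialLinearGroup (Fin 2) F) (t : F),
      ((g : Matrix (Fin 2) (Fin 2) F) = !![1, t; 0, 1] →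
        ((φ g : GL chevG2.Idx F) : Matrix chevG2.Idx chevG2.Idx F) = chevG2.x F r t) ∧
      ((g : Matrix (Fin 2) (Fin 2) F) = !![1, 0; t, 1] →
        ((φ g : GL chevG2.Idx F) : Matrix chevG2.Idx chevG2.Idx F) = chevG2.x F (chevG2.neg r) t)) :
    Function.Injective φ := by
  have hD : chevG2 ∈ chevList := li_g2_mem
  have hrlt : r < chevG2.nroots := by rcases hr with rfl | rfl <;> decide
  have hnlt : chevG2.neg r < chevG2.nroots := by rcases hr with rfl | rfl <;> decide
  have hne : chevG2.neg r ≠ r := by rcases hr with rfl | rfl <;> decide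
  have hnn : chevG2.neg (chevG2.neg r) = r := by rcases hr with rfl | rfl <;> decide
  have hpos : chevG2.IsPosRoot r := by rcases hr with rfl | rfl <;> decide
  have hneg : chevG2.IsNegRoot (chevG2.neg r) := by rcases hr with rfl | rfl <;> decide
  have hW : W chevG2 r 3 = 1 ∨ W chevG2 r 3 = -1 := by rcases hr with rfl | rfl <;> decide
  have hUB : chevG2.posUnipotent F ≤ chevG2.borelSubgroup F := by
    unfold ChevalleyDatum.borelSubgroup
    exact le_sup_left
  obtain ⟨X, hXdef⟩ : ∃ X : F → Matrix.SpecialLinearGroup (Fin 2) F,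
      ∀ t, (X t : Matrix (Fin 2) (Fin 2) F) = !![1, t; 0, 1] :=
    ⟨fun t => ⟨!![1, t; 0, 1], by simp [Matrix.det_fin_two]⟩, fun t => rfl⟩
  obtain ⟨Y, hYdef⟩ : ∃ Y : F → Matrix.SpecialLinearGroup (Fin 2) F,
      ∀ t, (Y t : Matrix (Fin 2) (Fin 2) F) = !![1, 0; t, 1] :=
    ⟨fun t => ⟨!![1, 0; t, 1], by simp [Matrix.det_fin_two]⟩, fun t => rfl⟩
  have hX : ∀ t, φ (X t) = xGL chevG2 hD r t := fun t =>
    Units.ext (by rw [xGL_val]; exact (hφ (X t) t).1 (hXdef t))
  have hY : ∀ t, φ (Y t) = xGL chevG2 hD (chevG2.neg r) t := fun t =>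
    Units.ext (by rw [xGL_val]; exact (hφ (Y t) t).2 (hYdef t))
  have hU : ∀ t : F, xGL chevG2 hD r t ∈ chevG2.posUnipotent F := fun t =>
    Subgroup.subset_closure ⟨r, t, hpos, xGL_val chevG2 hD r t⟩
  have hV : ∀ t : F, xGL chevG2 hD (chevG2.neg r) t ∈ chevG2.negUnipotent F := fun t =>
    Subgroup.subset_closure ⟨chevG2.neg r, t, hneg, xGL_val chevG2 hD _ t⟩
  rw [injective_iff_map_eq_one]
  intro g hg
  obtain ⟨a, ha_def⟩ : ∃ a, a = (g : Matrix (Fin 2) (Fin 2) F) 0 0 := ⟨_, rfl⟩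
  obtain ⟨b, hb_def⟩ : ∃ b, b = (g : Matrix (Fin 2) (Fin 2) F) 0 1 := ⟨_, rfl⟩
  obtain ⟨c, hc_def⟩ : ∃ c, c = (g : Matrix (Fin 2) (Fin 2) F) 1 0 := ⟨_, rfl⟩
  obtain ⟨d, hd_def⟩ : ∃ d, d = (g : Matrix (Fin 2) (Fin 2) F) 1 1 := ⟨_, rfl⟩
  have hgm : (g : Matrix (Fin 2) (Fin 2) F) = !![a, b; c, d] := by
    rw [ha_def, hb_def, hc_def, hd_def]
    exact Matrix.eta_fin_two _
  have hdet : a * d - b * c = 1 := by
    have := g.2
    rw [hgm, Matrix.det_fin_two_of] at this
    exact this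
  by_cases hc : c = 0
  · -- upper triangular
    have ha : a ≠ 0 := by
      intro h0
      rw [h0, hc] at hdet
      simp at hdet
    have hgeq : g = X (a * b) * ((X a * Y (-a⁻¹) * X a) * (X (-1) * Y (-(-1 : F)⁻¹) * X (-1))) := by
      apply Subtype.ext
      simp only [Matrix.SpecialLinearGroup.coe_mul, hXdef, hYdef, hgm, Matrix.mul_fin_two]
      have had : a * d = 1 := by rw [hc] at hdet; simpa using hdet
      ext i j
      fin_cases i <;> fin_cases j
      · simp
        field_simp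
        ring
      · simp
        field_simp
        ring
      · simp [hc]
        field_simp
        ring
      · simp
        field_simp
        linear_combination had
    have h1 : φ g = xGL chevG2 hD r (a * b) *
        ((xGL chevG2 hD r a * xGL chevG2 hD (chevG2.neg r) (-a⁻¹) * xGL chevG2 hD r a) *
          (xGL chevG2 hD r (-1) * xGL chevG2 hD (chevG2.neg r) (-(-1 : F)⁻¹) *
            xGL chevG2 hD r (-1))) := by
      conv_lhs => rw [hgeq]
      simp only [map_mul, hX, hY]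
    obtain ⟨k, hk⟩ := li_exists_hGL r hrlt a ha
    have hkH : k ∈ chevG2.diagonalSubgroup F := Subgroup.subset_closure ⟨r, a, hrlt, ha, hk⟩
    have hkeq : (xGL chevG2 hD r a * xGL chevG2 hD (chevG2.neg r) (-a⁻¹) * xGL chevG2 hD r a) *
          (xGL chevG2 hD r (-1) * xGL chevG2 hD (chevG2.neg r) (-(-1 : F)⁻¹) *
            xGL chevG2 hD r (-1)) = k := by
      apply Units.ext
      rw [hk, hMat_eq_nMat_mul, nMat_eq, nMat_eq]
      simp only [Units.val_mul, xGL_val, mul_assoc]
    rw [hkeq, hg] at h1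
    have h2 : xGL chevG2 hD r (a * b) = k⁻¹ := eq_inv_of_mul_eq_one_left h1.symm
    have h3 : xGL chevG2 hD r (a * b) ∈ chevG2.posUnipotent F ⊓ chevG2.diagonalSubgroup F :=
      ⟨hU _, by rw [h2]; exact Subgroup.inv_mem _ hkH⟩
    rw [posUnipotent_inf_diagonal chevG2 hD, Subgroup.mem_bot] at h3
    have hab : a * b = 0 := li_x_eq_one r hrlt hnlt hne _ (by
      rw [← xGL_val chevG2 hD, h3]
      rfl)
    have hb : b = 0 := (mul_eq_zero.mp hab).resolve_left ha
    have hk1 : k = 1 := by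
      rw [h3, one_mul] at h1
      exact h1.symm
    have htor : torus F chevG2 (fun s => a ^ W chevG2 r s) = torus F chevG2 (fun _ => 1) := by
      rw [← hMat_eq_torus chevG2 hD r hrlt a ha, ← hk, hk1, torus_one]
      rfl
    have hpow : a ^ W chevG2 r 3 = 1 := li_torus_inj _ _ htor 3 (by decide)
    have ha1 : a = 1 := by
      rcases hW with hW | hW
      · rw [hW, _root_.zpow_one] at hpow
        exact hpow
      · rw [hW, _root_.zpow_neg_one, _root_.inv_eq_one] at hpow
        exact hpow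
    have hd1 : d = 1 := by
      rw [ha1, hc] at hdet
      simpa using hdet
    apply Subtype.ext
    rw [hgm, ha1, hb, hc, hd1, Matrix.SpecialLinearGroup.coe_one, Matrix.one_fin_two]
  · -- `c ≠ 0`
    have hgeq : g = X (a / c) * (X (-c⁻¹) * Y c * X (-c⁻¹)) * X (d / c) := by
      apply Subtype.ext
      simp only [Matrix.SpecialLinearGroup.coe_mul, hXdef, hYdef, hgm, Matrix.mul_fin_two]
      ext i j
      fin_cases i <;> fin_cases j
      · simp
        field_simp
        ring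
      · simp
        field_simp
        linear_combination (-1 : F) * hdet
      · simp
      · simp
        field_simp
        ring
    have h1 : 1 = xGL chevG2 hD r (a / c) *
        (xGL chevG2 hD r (-c⁻¹) * xGL chevG2 hD (chevG2.neg r) c * xGL chevG2 hD r (-c⁻¹)) *
          xGL chevG2 hD r (d / c) := by
      rw [← hg]
      conv_lhs => rw [hgeq]
      simp only [map_mul, hX, hY]
    have h2 : xGL chevG2 hD (chevG2.neg r) c ∈ chevG2.posUnipotent F := by
      have e : xGL chevG2 hD (chevG2.neg r) c =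
          (xGL chevG2 hD r (-c⁻¹))⁻¹ * (xGL chevG2 hD r (a / c))⁻¹ *
            ((xGL chevG2 hD r (d / c))⁻¹ * (xGL chevG2 hD r (-c⁻¹))⁻¹) := by
        have h1' := h1.symm
        revert h1'
        generalize xGL chevG2 hD r (a / c) = A
        generalize xGL chevG2 hD r (-c⁻¹) = B
        generalize xGL chevG2 hD (chevG2.neg r) c = V
        generalize xGL chevG2 hD r (d / c) = Dd
        intro h1'
        calc V = B⁻¹ * A⁻¹ * (A * (B * V * B) * Dd) * (Dd⁻¹ * B⁻¹) := by group
          _ = B⁻¹ * A⁻¹ * (Dd⁻¹ * B⁻¹) := by rw [h1', mul_one]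
      rw [e]
      exact Subgroup.mul_mem _
        (Subgroup.mul_mem _ (Subgroup.inv_mem _ (hU _)) (Subgroup.inv_mem _ (hU _)))
        (Subgroup.mul_mem _ (Subgroup.inv_mem _ (hU _)) (Subgroup.inv_mem _ (hU _)))
    have h3 : xGL chevG2 hD (chevG2.neg r) c ∈
        chevG2.borelSubgroup F ⊓ chevG2.negUnipotent F := ⟨hUB h2, hV c⟩
    rw [borel_inf_negUnipotent chevG2 hD, Subgroup.mem_bot] at h3
    have hc0 : c = 0 := li_x_eq_one (chevG2.neg r) hnlt (by rw [hnn]; exact hrlt)
      (by rw [hnn]; exact hne.symm) c (by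
        rw [← xGL_val chevG2 hD, h3]
        rfl)
    exact absurd hc0 hc

end Cfsg.Agent.Lib.Helper25.G2c
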