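import Mathlib
import Cfsg.Agent.Lib.Helper25.G2cD
import Cfsg.Agent.Lib.Helper25.G2cXLI

set_option autoImplicit false

/-! S4279 piece IS (from the injectivity of the root homomorphisms, piece LI). -/

namespace Cfsg.Agent.Lib.Helper25.G2c

open Cfsg Cfsg.Lie Matrix
open Cfsg.Agent.Lib.Helper8 Cfsg.Agent.Lib.Helper24 Cfsg.Agent.Lib.Helper25

variable {F : Type*} [Field F]

theorem LL_iso (r : ℕ) (hr : r = 7 ∨ r = 11) :
    Nonempty (↥((LL F r).subgroupOf (chevG2.group F)) ≃* Matrix.SpecialLinearGroup (Fin 2) F) := by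
  have hlt : r < chevG2.nroots := by
    rcases hr with rfl | rfl <;> decide
  obtain ⟨φ, hrange, hval⟩ := exists_sl2_hom (F := F) chevG2 g2_mem' r hlt
  have hinj : Function.Injective φ := sl2_inj r hr φ hval
  have hrange' : φ.range = LL F r := hrange
  exact ⟨((MonoidHom.ofInjective hinj).trans ((MulEquiv.subgroupCongr hrange').trans
    (Subgroup.subgroupOfEquivOfLe (LL_le F r)).symm)).symm⟩

end Cfsg.Agent.Lib.Helper25.G2c
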