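import Mathlib
import Cfsg.Agent.Lib.Helper25.G2cD

set_option autoImplicit false

/-! S4279 piece LC (the root subgroups of the roots 7, 4 commute with those of 11, 0). -/

namespace Cfsg.Agent.Lib.Helper25.G2c

open Cfsg Cfsg.Lie Matrix
open Cfsg.Agent.Lib.Helper8 Cfsg.Agent.Lib.Helper24 Cfsg.Agent.Lib.Helper25

variable {F : Type*} [Field F]

theorem lc_gen (r s : ℕ) (hr : r = 7 ∨ r = 4) (hs : s = 11 ∨ s = 0) (t u : F) :
    chevG2.x F r t * chevG2.x F s u = chevG2.x F s u * chevG2.x F r t := by
  have hrlt : r < chevG2.nroots := by rcases hr with rfl | rfl <;> decide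
  have hslt : s < chevG2.nroots := by rcases hs with rfl | rfl <;> decide
  have hne : s ≠ r := by rcases hr with rfl | rfl <;> rcases hs with rfl | rfl <;> decide
  have hneg : s ≠ chevG2.neg r := by
    rcases hr with rfl | rfl <;> rcases hs with rfl | rfl <;> decide
  have hc := comm_formula (F := F) chevG2 g2_mem' r s hrlt hslt hne hneg t u
  have hw : chevG2.commWord F r s t u = [] := by
    unfold ChevalleyDatum.commWord
    have : chevG2.commTerms r s = [] := by
      rcases hr with rfl | rfl <;> rcases hs with rfl | rfl <;> decide +kernel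
    rw [this]
    rfl
  rw [hw] at hc
  have e : chevG2.wordMat F ([] : List (ℕ × F)) = 1 := by
    unfold ChevalleyDatum.wordMat
    rfl
  rw [e, mul_one] at hc
  exact hc.symm

theorem lc_root (r s : ℕ) (hr : r = 7 ∨ r = 4) (hs : s = 11 ∨ s = 0) :
    chevG2.rootSubgroup F r ≤
      Subgroup.centralizer ((chevG2.rootSubgroup F s : Subgroup (GL chevG2.Idx F)) :
        Set (GL chevG2.Idx F)) := by
  have h1 : ∀ (g : GL chevG2.Idx F) (t : F),
      (g : Matrix chevG2.Idx chevG2.Idx F) = chevG2.x F r t →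
      chevG2.rootSubgroup F s ≤ Subgroup.centralizer ({g} : Set (GL chevG2.Idx F)) := by
    intro g t hg
    unfold ChevalleyDatum.rootSubgroup
    rw [Subgroup.closure_le]
    rintro k ⟨u, hk⟩
    rw [SetLike.mem_coe, Subgroup.mem_centralizer_iff]
    intro y hy
    rw [Set.mem_singleton_iff] at hy
    rw [hy]
    apply Units.ext
    rw [Units.val_mul, Units.val_mul, hg, hk]
    exact lc_gen r s hr hs t u
  have h2 : chevG2.rootSubgroup F r = Subgroup.closure
      {g : GL chevG2.Idx F | ∃ t : F, (g : Matrix chevG2.Idx chevG2.Idx F) = chevG2.x F r t} := rfl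
  rw [h2, Subgroup.closure_le]
  rintro g ⟨t, hg⟩
  rw [SetLike.mem_coe, Subgroup.mem_centralizer_iff]
  intro k hk
  have := h1 g t hg hk
  rw [Subgroup.mem_centralizer_iff] at this
  exact (this g rfl).symm

theorem LL_comm (x : GL chevG2.Idx F) (hx : x ∈ LL F 7) (y : GL chevG2.Idx F)
    (hy : y ∈ LL F 11) : x * y = y * x := by
  have n7 : chevG2.neg 7 = 4 := by decide
  have n11 : chevG2.neg 11 = 0 := by decide
  have h1 : ∀ s : ℕ, (s = 11 ∨ s = 0) → chevG2.rootSubgroup F s ≤
      Subgroup.centralizer ((LL F 7 : Subgroup (GL chevG2.Idx F)) : Set (GL chevG2.Idx F)) := by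
    intro s hs
    rw [Subgroup.le_centralizer_iff]
    unfold LL
    rw [n7]
    exact sup_le (lc_root 7 s (by simp) hs) (lc_root 4 s (by simp) hs)
  have h2 : LL F 11 ≤
      Subgroup.centralizer ((LL F 7 : Subgroup (GL chevG2.Idx F)) : Set (GL chevG2.Idx F)) := by
    have e : LL F 11 = chevG2.rootSubgroup F 11 ⊔ chevG2.rootSubgroup F 0 := by
      unfold LL
      rw [n11]
    rw [e]
    exact sup_le (h1 11 (by simp)) (h1 0 (by simp))
  have := h2 hy
  rw [Subgroup.mem_centralizer_iff] at this
  exact this x hx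

end Cfsg.Agent.Lib.Helper25.G2c
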