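import Mathlib
import Cfsg.Agent.Lib.Helper25.G2cD

set_option autoImplicit false

/-! S4279 piece LT (proved by helper87): the root `SL₂`-homomorphisms of the roots 7 and 11 send
`-1` to `tau`. -/

namespace Cfsg.Agent.Lib.Helper25.G2c

open Cfsg Cfsg.Lie Matrix
open Cfsg.Agent.Lib.Helper8 Cfsg.Agent.Lib.Helper24 Cfsg.Agent.Lib.Helper25

variable {F : Type*} [Field F]

/-- upper elementary matrix -/
def lt_X (t : F) : Matrix.SpecialLinearGroup (Fin 2) F :=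
  ⟨!![1, t; 0, 1], by simp [Matrix.det_fin_two]⟩

/-- lower elementary matrix -/
def lt_Y (t : F) : Matrix.SpecialLinearGroup (Fin 2) F :=
  ⟨!![1, 0; t, 1], by simp [Matrix.det_fin_two]⟩

theorem lt_X_val (t : F) :
    ((lt_X t : Matrix.SpecialLinearGroup (Fin 2) F) : Matrix (Fin 2) (Fin 2) F) = !![1, t; 0, 1] :=
  rfl

theorem lt_Y_val (t : F) :
    ((lt_Y t : Matrix.SpecialLinearGroup (Fin 2) F) : Matrix (Fin 2) (Fin 2) F) = !![1, 0; t, 1] :=
  rfl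

theorem lt_sq (g : Matrix.SpecialLinearGroup (Fin 2) F)
    (hg : (g : Matrix (Fin 2) (Fin 2) F) = !![-1, 0; 0, -1]) :
    g = (lt_X (-1) * lt_Y 1 * lt_X (-1)) * (lt_X (-1) * lt_Y 1 * lt_X (-1)) := by
  apply Subtype.ext
  rw [hg]
  simp only [Matrix.SpecialLinearGroup.coe_mul, lt_X_val, lt_Y_val]
  ext i j
  fin_cases i <;> fin_cases j <;> simp [Matrix.mul_apply, Fin.sum_univ_two]

theorem lt_zpow (a b : ℤ) (h : a % 2 = b % 2) : (-1 : F) ^ a = (-1 : F) ^ b := by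
  obtain ⟨k, hk⟩ : ∃ k : ℤ, a = b + 2 * k := ⟨(a - b) / 2, by omega⟩
  rw [hk, zpow_add₀ (neg_ne_zero.2 one_ne_zero), _root_.zpow_mul]
  norm_num

theorem lt_parity : ∀ s : ℕ, s < 12 →
    Cfsg.Agent.Lib.Helper24.W chevG2 11 s % 2 = Cfsg.Agent.Lib.Helper24.W chevG2 7 s % 2 := by
  decide +kernel

theorem sl2_neg (r : ℕ) (hr : r = 7 ∨ r = 11)
    (φ : Matrix.SpecialLinearGroup (Fin 2) F →* GL chevG2.Idx F)
    (hφ : ∀ (g : Matrix.SpecialLinearGroup (Fin 2) F) (t : F),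
      ((g : Matrix (Fin 2) (Fin 2) F) = !![1, t; 0, 1] →
        ((φ g : GL chevG2.Idx F) : Matrix chevG2.Idx chevG2.Idx F) = chevG2.x F r t) ∧
      ((g : Matrix (Fin 2) (Fin 2) F) = !![1, 0; t, 1] →
        ((φ g : GL chevG2.Idx F) : Matrix chevG2.Idx chevG2.Idx F) = chevG2.x F (chevG2.neg r) t))
    (g : Matrix.SpecialLinearGroup (Fin 2) F)
    (hg : (g : Matrix (Fin 2) (Fin 2) F) = !![-1, 0; 0, -1]) : φ g = tau F := by
  have hX : ∀ t : F, ((φ (lt_X t) : GL chevG2.Idx F) : Matrix chevG2.Idx chevG2.Idx F)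
      = chevG2.x F r t := fun t => (hφ (lt_X t) t).1 (lt_X_val t)
  have hY : ∀ t : F, ((φ (lt_Y t) : GL chevG2.Idx F) : Matrix chevG2.Idx chevG2.Idx F)
      = chevG2.x F (chevG2.neg r) t := fun t => (hφ (lt_Y t) t).2 (lt_Y_val t)
  have hm : ((φ (lt_X (-1) * lt_Y 1 * lt_X (-1)) : GL chevG2.Idx F) :
      Matrix chevG2.Idx chevG2.Idx F) = chevG2.nMat F r (-1) := by
    rw [Cfsg.Agent.Lib.Helper24.nMat_eq chevG2 r (-1 : F), map_mul, map_mul, Units.val_mul,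
      Units.val_mul, hX, hY, inv_neg_one, neg_neg, mul_assoc]
  have hval : ((φ g : GL chevG2.Idx F) : Matrix chevG2.Idx chevG2.Idx F)
      = chevG2.hMat F r (-1) := by
    rw [lt_sq g hg, map_mul, Units.val_mul, hm,
      Cfsg.Agent.Lib.Helper24.hMat_eq_nMat_mul chevG2 r (-1 : F)]
  apply Units.ext
  rw [hval]
  rcases hr with rfl | rfl
  · exact (tau_eq_hMat F).symm
  · rw [tau_val, Cfsg.Agent.Lib.Helper24.hMat_eq_torus chevG2 Cfsg.Agent.Lib.Helper25.g2_mem' 11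
      (by decide) (-1 : F) (neg_ne_zero.2 one_ne_zero)]
    apply Cfsg.Agent.Lib.Helper24.torus_congr
    intro s hs
    have hs' : s < 12 := hs
    unfold chi
    exact lt_zpow _ _ (lt_parity s hs')

end Cfsg.Agent.Lib.Helper25.G2c
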