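import Mathlib
import Cfsg.Agent.Lib.Helper25.G2cD
import Cfsg.Agent.Lib.Helper25.G2cXLI
import Cfsg.Agent.Lib.Helper25.G2cXLT
import Cfsg.Agent.Lib.Helper25.G2cXLC

set_option autoImplicit false

/-! S4279 piece LN (from the pieces LI, LT, LC and the centre of SL₂). -/

namespace Cfsg.Agent.Lib.Helper25.G2c

open Cfsg Cfsg.Lie Matrix
open Cfsg.Agent.Lib.Helper8 Cfsg.Agent.Lib.Helper24 Cfsg.Agent.Lib.Helper25

variable {F : Type*} [Field F]

theorem LL_inf : LL F 7 ⊓ LL F 11 = Subgroup.zpowers (tau F) := by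
  obtain ⟨φ₇, hr₇, hv₇⟩ := exists_sl2_hom (F := F) chevG2 g2_mem' 7 (by decide)
  obtain ⟨φ₁₁, hr₁₁, hv₁₁⟩ := exists_sl2_hom (F := F) chevG2 g2_mem' 11 (by decide)
  have hr₇' : φ₇.range = LL F 7 := hr₇
  have hr₁₁' : φ₁₁.range = LL F 11 := hr₁₁
  have hinj := sl2_inj 7 (Or.inl rfl) φ₇ hv₇
  obtain ⟨z, hz⟩ : ∃ z : Matrix.SpecialLinearGroup (Fin 2) F,
      (z : Matrix (Fin 2) (Fin 2) F) = !![-1, 0; 0, -1] :=
    ⟨⟨!![-1, 0; 0, -1], by simp [Matrix.det_fin_two]⟩, rfl⟩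
  have e7 : φ₇ z = tau F := sl2_neg 7 (Or.inl rfl) φ₇ hv₇ z hz
  have e11 : φ₁₁ z = tau F := sl2_neg 11 (Or.inr rfl) φ₁₁ hv₁₁ z hz
  apply le_antisymm
  · rintro x ⟨hx7, hx11⟩
    have hx7' : x ∈ φ₇.range := by
      rw [hr₇']
      exact hx7
    obtain ⟨g, rfl⟩ := hx7'
    have hcen : g ∈ Subgroup.center (Matrix.SpecialLinearGroup (Fin 2) F) := by
      rw [Subgroup.mem_center_iff]
      intro g'
      apply hinj
      rw [map_mul, map_mul]
      have h1 : φ₇ g' ∈ LL F 7 := by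
        rw [← hr₇']
        exact ⟨g', rfl⟩
      exact LL_comm (φ₇ g') h1 (φ₇ g) hx11
    rw [Matrix.SpecialLinearGroup.mem_center_iff] at hcen
    obtain ⟨r, hr, hg⟩ := hcen
    have hr2 : r = 1 ∨ r = -1 := by
      have h1 : r * r = 1 := by
        have : r ^ 2 = 1 := by simpa using hr
        rw [← this]
        ring
      exact mul_self_eq_one_iff.1 h1
    rcases hr2 with rfl | rfl
    · have hg1 : g = 1 := by
        apply Subtype.ext
        rw [← hg]
        simp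
      rw [hg1, map_one]
      exact one_mem _
    · have hgm : (g : Matrix (Fin 2) (Fin 2) F) = !![-1, 0; 0, -1] := by
        rw [← hg]
        ext i j
        fin_cases i <;> fin_cases j <;> simp [Matrix.scalar_apply, Matrix.diagonal]
      rw [sl2_neg 7 (Or.inl rfl) φ₇ hv₇ g hgm]
      exact Subgroup.mem_zpowers _
  · rw [Subgroup.zpowers_le]
    constructor
    · show tau F ∈ LL F 7
      rw [← hr₇', ← e7]
      exact ⟨z, rfl⟩
    · show tau F ∈ LL F 11
      rw [← hr₁₁', ← e11]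
      exact ⟨z, rfl⟩

end Cfsg.Agent.Lib.Helper25.G2c
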