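import Mathlib
import Cfsg.Agent.Lib.Helper25.G2cD

set_option autoImplicit false

/-! S4279 piece LZ (tau commutes with the root elements of the roots 7, 4, 11, 0). -/

namespace Cfsg.Agent.Lib.Helper25.G2c

open Cfsg Cfsg.Lie Matrix
open Cfsg.Agent.Lib.Helper8 Cfsg.Agent.Lib.Helper24 Cfsg.Agent.Lib.Helper25

variable {F : Type*} [Field F]

theorem LL_cent (x : GL chevG2.Idx F) (hx : x ∈ LL F 7 ⊔ LL F 11) :
    tau F * x = x * tau F := by
  have key : ∀ s : ℕ, (s = 7 ∨ s = 4 ∨ s = 11 ∨ s = 0) →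
      chevG2.rootSubgroup F s ≤ Subgroup.centralizer ({tau F} : Set (GL chevG2.Idx F)) := by
    intro s hs
    unfold ChevalleyDatum.rootSubgroup
    rw [Subgroup.closure_le]
    rintro g ⟨t, hg⟩
    have e : g = xGL chevG2 g2_mem' s t := Units.ext (by rw [hg, xGL_val])
    rw [SetLike.mem_coe, Subgroup.mem_centralizer_iff]
    intro y hy
    rw [Set.mem_singleton_iff] at hy
    rw [hy, e]
    exact tau_comm_x F s hs t
  have n7 : chevG2.neg 7 = 4 := by decide
  have n11 : chevG2.neg 11 = 0 := by decide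
  have hle : LL F 7 ⊔ LL F 11 ≤ Subgroup.centralizer ({tau F} : Set (GL chevG2.Idx F)) := by
    unfold LL
    rw [n7, n11]
    exact sup_le (sup_le (key 7 (by simp)) (key 4 (by simp)))
      (sup_le (key 11 (by simp)) (key 0 (by simp)))
  have := hle hx
  rw [Subgroup.mem_centralizer_iff] at this
  exact this (tau F) rfl

end Cfsg.Agent.Lib.Helper25.G2c
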