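import Mathlib
import Cfsg.Agent.Lib.Helper25.G2cD
import Cfsg.Agent.Lib.Helper14.Basic

set_option autoImplicit false

/-! S4279 piece SP (commuting subgroups normalize each other). -/

namespace Cfsg.Agent.Lib.Helper25.G2c

open Cfsg Cfsg.Lie Matrix
open Cfsg.Agent.Lib.Helper8 Cfsg.Agent.Lib.Helper24 Cfsg.Agent.Lib.Helper25

variable {F : Type*} [Field F]

theorem card_sup_mul_card_inf {G : Type*} [Group G] [Finite G] (A B : Subgroup G)
    (hcomm : ∀ x ∈ A, ∀ y ∈ B, x * y = y * x) :
    Nat.card ↥(A ⊔ B) * Nat.card ↥(A ⊓ B) = Nat.card ↥A * Nat.card ↥B := by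
  apply Cfsg.Agent.Lib.Helper14.card_sup_mul_card_inf
  intro x hx
  rw [Subgroup.mem_normalizer_iff]
  intro n
  constructor
  · intro hn
    have : x * n * x⁻¹ = n := by rw [hcomm x hx n hn, mul_inv_cancel_right]
    rw [this]
    exact hn
  · intro hn
    have h1 := hcomm x hx _ hn
    have h2 : x * (x * n * x⁻¹) = x * n := by
      rw [h1]
      group
    have : n = x * n * x⁻¹ := (mul_left_cancel h2).symm
    rw [this]
    exact hn

end Cfsg.Agent.Lib.Helper25.G2c
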