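import Mathlib
import Cfsg.Agent.Lib.Helper25.G2cD
import Cfsg.Agent.Lib.Helper14.Basic
import Cfsg.Agent.Lib.Helper25.G2cXSP

set_option autoImplicit false

/-! S4279 piece RI (index of the central product in the centralizer). -/

namespace Cfsg.Agent.Lib.Helper25.G2c

open Cfsg Cfsg.Lie Matrix
open Cfsg.Agent.Lib.Helper8 Cfsg.Agent.Lib.Helper24 Cfsg.Agent.Lib.Helper25

variable {F : Type*} [Field F]

theorem relIndex_two {G : Type*} [Group G] [Finite G] (A B C : Subgroup G) (z : G) (q : ℕ)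
    (hq : 2 ≤ q) (hcomm : ∀ x ∈ A, ∀ y ∈ B, x * y = y * x) (hint : A ⊓ B = Subgroup.zpowers z)
    (hz : orderOf z = 2) (hA : Nat.card ↥A = q * (q ^ 2 - 1)) (hB : Nat.card ↥B = q * (q ^ 2 - 1))
    (hle : A ⊔ B ≤ C) (hC : Nat.card ↥C = q ^ 2 * (q ^ 2 - 1) ^ 2) :
    (A ⊔ B).relIndex C = 2 := by
  have h1 := card_sup_mul_card_inf A B hcomm
  rw [hint, Nat.card_zpowers, hz, hA, hB] at h1
  have h2 := Cfsg.Agent.Lib.Helper14.card_mul_relIndex hle
  rw [hC] at h2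
  have hpos : 0 < Nat.card ↥(A ⊔ B) := Nat.card_pos
  have h3 : Nat.card ↥(A ⊔ B) * (A ⊔ B).relIndex C = Nat.card ↥(A ⊔ B) * 2 := by
    rw [h2, h1]
    ring
  exact Nat.eq_of_mul_eq_mul_left hpos h3

end Cfsg.Agent.Lib.Helper25.G2c
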