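import Mathlib
import Cfsg.Agent.Lib.Helper25.G2cD
import Cfsg.Agent.Lib.Helper6.PSLCard

set_option autoImplicit false

/-! S4279 piece SC (from the order of GL₂). -/

namespace Cfsg.Agent.Lib.Helper25.G2c

open Cfsg Cfsg.Lie Matrix
open Cfsg.Agent.Lib.Helper8 Cfsg.Agent.Lib.Helper24 Cfsg.Agent.Lib.Helper25

variable {F : Type*} [Field F]

theorem card_sl2 [Fintype F] :
    Nat.card (Matrix.SpecialLinearGroup (Fin 2) F) =
      Fintype.card F * (Fintype.card F ^ 2 - 1) := by
  have h := Cfsg.Agent.Lib.Helper6.card_sl (F := F) (q := Fintype.card F) rfl 2 (by norm_num)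
  rw [Fin.prod_univ_two] at h
  simp only [Fin.val_zero, Fin.val_one, pow_zero, pow_one] at h
  have hq : 2 ≤ Fintype.card F := Fintype.one_lt_card
  have e : Fintype.card F ^ 2 - Fintype.card F = Fintype.card F * (Fintype.card F - 1) := by
    rw [Nat.mul_sub, mul_one, pow_two]
  rw [e] at h
  have hpos : 0 < Fintype.card F - 1 := by omega
  apply Nat.eq_of_mul_eq_mul_left hpos
  rw [h]
  ring

end Cfsg.Agent.Lib.Helper25.G2c
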