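import Mathlib
import Cfsg.Agent.Lib.Helper25.G2cD

set_option autoImplicit false

/-! S4279 piece TR (placeholder: replace the `sorry`; keep the statement(s) exactly). -/

namespace Cfsg.Agent.Lib.Helper25.G2c

open Cfsg Cfsg.Lie Matrix
open Cfsg.Agent.Lib.Helper8 Cfsg.Agent.Lib.Helper24 Cfsg.Agent.Lib.Helper25

variable {F : Type*} [Field F]

theorem cent_transport {G : Type*} [Group G] {K : Type*} [Group K] (s t : G)
    (hst : IsConj s t) (k m : ℕ)
    (hs : Nat.card ↥(Subgroup.centralizer ({s} : Set G)) = k ∧ ∃ L₁ L₂ : Subgroup G,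
      Nonempty (L₁ ≃* K) ∧ Nonempty (L₂ ≃* K) ∧ (∀ x ∈ L₁, ∀ y ∈ L₂, x * y = y * x) ∧
      L₁ ⊓ L₂ = Subgroup.zpowers s ∧ L₁ ⊔ L₂ ≤ Subgroup.centralizer ({s} : Set G) ∧
      (L₁ ⊔ L₂).relIndex (Subgroup.centralizer ({s} : Set G)) = m) :
    Nat.card ↥(Subgroup.centralizer ({t} : Set G)) = k ∧ ∃ L₁ L₂ : Subgroup G,
      Nonempty (L₁ ≃* K) ∧ Nonempty (L₂ ≃* K) ∧ (∀ x ∈ L₁, ∀ y ∈ L₂, x * y = y * x) ∧
      L₁ ⊓ L₂ = Subgroup.zpowers t ∧ L₁ ⊔ L₂ ≤ Subgroup.centralizer ({t} : Set G) ∧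
      (L₁ ⊔ L₂).relIndex (Subgroup.centralizer ({t} : Set G)) = m := by
  obtain ⟨c, hc⟩ := isConj_iff.1 hst
  obtain ⟨hk, L₁, L₂, ⟨e₁⟩, ⟨e₂⟩, hcomm, hinf, hle, hidx⟩ := hs
  have hinj : Function.Injective ((MulAut.conj c : G ≃* G).toMonoidHom) := (MulAut.conj c).injective
  have happ : ∀ x : G, (MulAut.conj c : G ≃* G).toMonoidHom x = c * x * c⁻¹ := fun x => rfl
  have hcent : Subgroup.centralizer ({t} : Set G) =
      (Subgroup.centralizer ({s} : Set G)).map (MulAut.conj c : G ≃* G).toMonoidHom := by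
    ext x
    rw [Subgroup.mem_map, Subgroup.mem_centralizer_iff]
    constructor
    · intro hx
      refine ⟨c⁻¹ * x * c, ?_, ?_⟩
      · rw [Subgroup.mem_centralizer_iff]
        intro y hy
        rw [Set.mem_singleton_iff] at hy
        subst hy
        have h1 := hx t rfl
        rw [← hc] at h1
        have h2 : c⁻¹ * (c * y * c⁻¹ * x) * c = c⁻¹ * (x * (c * y * c⁻¹)) * c := by rw [h1]
        calc y * (c⁻¹ * x * c) = c⁻¹ * (c * y * c⁻¹ * x) * c := by group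
          _ = c⁻¹ * (x * (c * y * c⁻¹)) * c := h2
          _ = c⁻¹ * x * c * y := by group
      · rw [happ]
        group
    · rintro ⟨z, hz, rfl⟩ y hy
      rw [Set.mem_singleton_iff] at hy
      subst hy
      rw [Subgroup.mem_centralizer_iff] at hz
      have h1 := hz s rfl
      rw [happ, ← hc]
      calc c * s * c⁻¹ * (c * z * c⁻¹) = c * (s * z) * c⁻¹ := by group
        _ = c * (z * s) * c⁻¹ := by rw [h1]
        _ = c * z * c⁻¹ * (c * s * c⁻¹) := by group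
  refine ⟨?_, L₁.map (MulAut.conj c : G ≃* G).toMonoidHom,
    L₂.map (MulAut.conj c : G ≃* G).toMonoidHom, ?_, ?_, ?_, ?_, ?_, ?_⟩
  · rw [hcent, ← hk]
    exact Nat.card_congr
      (Subgroup.equivMapOfInjective _ _ hinj).symm.toEquiv
  · exact ⟨(Subgroup.equivMapOfInjective L₁ _ hinj).symm.trans e₁⟩
  · exact ⟨(Subgroup.equivMapOfInjective L₂ _ hinj).symm.trans e₂⟩
  · rintro x ⟨x', hx', rfl⟩ y ⟨y', hy', rfl⟩
    rw [← map_mul, ← map_mul, hcomm x' hx' y' hy']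
  · rw [← Subgroup.map_inf_eq _ _ _ hinj, hinf, MonoidHom.map_zpowers, happ, hc]
  · rw [← Subgroup.map_sup, hcent]
    exact Subgroup.map_mono hle
  · rw [← Subgroup.map_sup, hcent, Subgroup.relIndex_map_map_of_injective _ _ hinj]
    exact hidx

end Cfsg.Agent.Lib.Helper25.G2c
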