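import Mathlib
import Cfsg.Agent.Lib.Helper25.G2cD
import Cfsg.Agent.Lib.Helper25.G2cXCT
import Cfsg.Agent.Lib.Helper25.G2cXLC
import Cfsg.Agent.Lib.Helper25.G2cXLZ
import Cfsg.Agent.Lib.Helper25.G2cXLN
import Cfsg.Agent.Lib.Helper25.G2cXIS
import Cfsg.Agent.Lib.Helper25.G2cXRI
import Cfsg.Agent.Lib.Helper25.G2cXSC
import Cfsg.Agent.Lib.Helper25.G2cXTR

/-!
# The centralizer of an involution of `G₂(q)`, `q` odd: assembly

The centralizer of the torus involution `τ = h_α(-1)` has order `q²(q² - 1)²` and contains the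
central product of the two root `SL₂`s of the orthogonal roots `α` and `3α + 2β` with index `2`.
-/

set_option autoImplicit false

namespace Cfsg.Agent.Lib.Helper25.G2c

open Cfsg Cfsg.Lie Matrix
open Cfsg.Agent.Lib.Helper8 Cfsg.Agent.Lib.Helper24 Cfsg.Agent.Lib.Helper25

variable {F : Type*} [Field F]

theorem two_ne_zero_of_odd [Fintype F] (hodd : Fintype.card F % 2 = 1) : (2 : F) ≠ 0 := by
  have hc : ringChar F ≠ 2 := by
    intro hc
    have := FiniteField.even_card_iff_char_two.1 hc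
    omega
  exact Ring.two_ne_zero hc

theorem tau_orderOf (h2 : (2 : F) ≠ 0) :
    orderOf (⟨tau F, tau_mem F⟩ : ↥(chevG2.group F)) = 2 := by
  have : Fact (Nat.Prime 2) := ⟨Nat.prime_two⟩
  apply orderOf_eq_prime
  · rw [pow_two]
    exact Subtype.ext (tau_sq F)
  · intro h
    exact tau_ne_one F h2 (congrArg Subtype.val h)

theorem main_tau [Fintype F] (h2 : (2 : F) ≠ 0) :
    Nat.card ↥(Subgroup.centralizer
      ({(⟨tau F, tau_mem F⟩ : ↥(chevG2.group F))} : Set ↥(chevG2.group F))) =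
      Fintype.card F ^ 2 * (Fintype.card F ^ 2 - 1) ^ 2 ∧
    ∃ L₁ L₂ : Subgroup ↥(chevG2.group F),
      Nonempty (L₁ ≃* Matrix.SpecialLinearGroup (Fin 2) F) ∧
      Nonempty (L₂ ≃* Matrix.SpecialLinearGroup (Fin 2) F) ∧
      (∀ x ∈ L₁, ∀ y ∈ L₂, x * y = y * x) ∧
      L₁ ⊓ L₂ = Subgroup.zpowers (⟨tau F, tau_mem F⟩ : ↥(chevG2.group F)) ∧
      L₁ ⊔ L₂ ≤ Subgroup.centralizer
        ({(⟨tau F, tau_mem F⟩ : ↥(chevG2.group F))} : Set ↥(chevG2.group F)) ∧
      (L₁ ⊔ L₂).relIndex (Subgroup.centralizer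
        ({(⟨tau F, tau_mem F⟩ : ↥(chevG2.group F))} : Set ↥(chevG2.group F))) = 2 := by
  classical
  have hcard := cent_card (F := F) h2
  have hcomm : ∀ x ∈ (LL F 7).subgroupOf (chevG2.group F),
      ∀ y ∈ (LL F 11).subgroupOf (chevG2.group F), x * y = y * x := by
    intro x hx y hy
    apply Subtype.ext
    exact LL_comm (x : GL chevG2.Idx F) (Subgroup.mem_subgroupOf.1 hx) (y : GL chevG2.Idx F)
      (Subgroup.mem_subgroupOf.1 hy)
  have hinf : (LL F 7).subgroupOf (chevG2.group F) ⊓ (LL F 11).subgroupOf (chevG2.group F) =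
      Subgroup.zpowers (⟨tau F, tau_mem F⟩ : ↥(chevG2.group F)) := by
    ext x
    rw [Subgroup.mem_inf, Subgroup.mem_subgroupOf, Subgroup.mem_subgroupOf, ← Subgroup.mem_inf,
      LL_inf, Subgroup.mem_zpowers_iff, Subgroup.mem_zpowers_iff]
    constructor
    · rintro ⟨k, hk⟩
      refine ⟨k, Subtype.ext ?_⟩
      rw [← hk]
      simp
    · rintro ⟨k, hk⟩
      refine ⟨k, ?_⟩
      rw [← hk]
      simp
  have hle : (LL F 7).subgroupOf (chevG2.group F) ⊔ (LL F 11).subgroupOf (chevG2.group F) ≤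
      Subgroup.centralizer
        ({(⟨tau F, tau_mem F⟩ : ↥(chevG2.group F))} : Set ↥(chevG2.group F)) := by
    intro x hx
    have hx' : (x : GL chevG2.Idx F) ∈ LL F 7 ⊔ LL F 11 := by
      have hle' : (LL F 7).subgroupOf (chevG2.group F) ⊔ (LL F 11).subgroupOf (chevG2.group F) ≤
          (LL F 7 ⊔ LL F 11).subgroupOf (chevG2.group F) :=
        sup_le (fun z hz => Subgroup.mem_subgroupOf.2 (le_sup_left (a := LL F 7)
            (Subgroup.mem_subgroupOf.1 hz)))
          (fun z hz => Subgroup.mem_subgroupOf.2 (le_sup_right (b := LL F 11)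
            (Subgroup.mem_subgroupOf.1 hz)))
      exact Subgroup.mem_subgroupOf.1 (hle' hx)
    rw [Subgroup.mem_centralizer_iff]
    intro y hy
    rw [Set.mem_singleton_iff] at hy
    rw [hy]
    exact Subtype.ext (LL_cent (x : GL chevG2.Idx F) hx')
  obtain ⟨e₁⟩ := LL_iso (F := F) 7 (Or.inl rfl)
  obtain ⟨e₂⟩ := LL_iso (F := F) 11 (Or.inr rfl)
  refine ⟨hcard, (LL F 7).subgroupOf (chevG2.group F), (LL F 11).subgroupOf (chevG2.group F),
    ⟨e₁⟩, ⟨e₂⟩, hcomm, hinf, hle, ?_⟩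
  exact relIndex_two _ _ _ (⟨tau F, tau_mem F⟩ : ↥(chevG2.group F)) (Fintype.card F)
    Fintype.one_lt_card hcomm hinf (tau_orderOf h2)
    (by rw [Nat.card_congr e₁.toEquiv, card_sl2]) (by rw [Nat.card_congr e₂.toEquiv, card_sl2])
    hle hcard

end Cfsg.Agent.Lib.Helper25.G2c
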