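import Cfsg.Agent.Lib.Helper98.H90Defs
import Cfsg.Agent.Lib.Helper77.H74HYPTYP

/-!
# Project H74, batch 2 (S5990), piece ELLTYP (helper25)

The elliptic predicate `EllM` of the statement is the typed-subspace predicate `SubTyp _ k (-1)`.
-/

set_option autoImplicit false
set_option linter.unusedSectionVars false
set_option linter.unusedVariables false

namespace Cfsg.Agent.Lib.Helper98.H74

open Cfsg.Agent.Lib.Helper47 Cfsg.Agent.Lib.Helper98.T73 Module Polynomial

universe u

variable {F : Type u} [Field F] [Fintype F]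

/-- ELLTYP -/
theorem ell_iff (hf : QFacts F) {ι : Type} [Fintype ι] [DecidableEq ι] {Q : (ι → F) → F}
    {B : (ι → F) → (ι → F) → F} (hQ : IsQuad Q B) (p : ℕ) [Fact p.Prime] [CharP F p]
    (W : Submodule F (ι → F)) (k : ℕ) : EllM Q (2 * k + 2) W ↔ SubTyp Q B W k (-1) := by
  have hpol : ∀ u v : ι → F, QuadraticMap.polar Q u v = B u v := by
    intro u v
    unfold QuadraticMap.polar
    rw [hQ.polar]
    ring
  constructor
  · rintro ⟨hdim, hndW, hnp⟩
    have hnd : Nondeg (resForm B W) := by
      intro x hx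
      by_contra hne
      have hne' : (x : ι → F) ≠ 0 := fun h0 => hne (Subtype.ext h0)
      obtain ⟨-, v, hv, hv0⟩ := hndW (x : ι → F) x.2 hne'
      apply hv0
      rw [hpol]
      exact hx ⟨v, hv⟩
    refine ⟨hnd, hdim, ?_⟩
    rcases hf.typ_exists k ↥W (fun w : W => Q (w : ι → F)) (resForm B W) (hQ.res W) hnd hdim with
      h | h
    · exfalso
      apply hnp
      have hwi : wi k 1 = k + 1 := by
        unfold wi
        rw [if_pos rfl]
      obtain ⟨U, hUW, hUdim, hUs⟩ :=
        sub_wi_exists hf hQ p W k 1 ⟨hnd, hdim, h⟩ (k + 1) (le_of_eq hwi.symm)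
      refine ⟨U, hUW, hUs, ?_⟩
      rw [hUdim, hdim]
      ring
    · exact h
  · rintro ⟨hnd, hdim, htyp⟩
    refine ⟨hdim, ?_, ?_⟩
    · intro u hu hu0
      have key : ∃ v ∈ W, QuadraticMap.polar Q u v ≠ 0 := by
        by_contra hcon
        apply hu0
        have h0 : (⟨u, hu⟩ : W) = 0 := by
          apply hnd
          intro y
          by_contra hy
          apply hcon
          refine ⟨(y : ι → F), y.2, ?_⟩
          rw [hpol]
          exact hy
        exact congrArg Subtype.val h0
      obtain ⟨v, hv, hv0⟩ := key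
      refine ⟨⟨v, hv, ?_⟩, ⟨v, hv, hv0⟩⟩
      rw [QuadraticMap.polar_comm]
      exact hv0
    · rintro ⟨U, hUW, hUs, hUdim⟩
      have hb := sub_wi_bound hf hQ W k (-1) ⟨hnd, hdim, htyp⟩ U hUW hUs
      have hwi : wi k (-1) = k := by
        unfold wi
        rw [if_neg (by norm_num)]
      rw [hwi] at hb
      omega

end Cfsg.Agent.Lib.Helper98.H74
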