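import Mathlib
import Cfsg.Agent.Lib.Helper25.StChev2
import Cfsg.Agent.Lib.Helper21.StBorel
import Cfsg.Agent.Lib.Helper16.BigCell
import Cfsg.Agent.Lib.Helper1.StNorm
import Cfsg.Agent.Lib.Helper29.StIrr

/-!
# The Steinberg character of a Chevalley group: restriction to `B`, degree, irreducibility,
vanishing on `p`-singular elements
-/

set_option autoImplicit false

namespace Cfsg.Agent.Lib.Helper25

open Cfsg Cfsg.Lie Matrix
open Cfsg.Agent.Lib.Helper8 Cfsg.Agent.Lib.Helper24

section StChev3

variable {F : Type*} [Field F]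

/-- `[B : H] = q^N`. -/
theorem st_card_quot [Finite F] (D : ChevalleyDatum)
    (hD : D ∈ [chevG2, chevB2, chevD4, chevF4, chevE6, chevE7, chevE8]) :
    Nat.card (↥((D.borelSubgroup F).subgroupOf (D.group F)) ⧸
      (((D.diagonalSubgroup F).subgroupOf (D.group F)).subgroupOf
        ((D.borelSubgroup F).subgroupOf (D.group F)))) = Nat.card F ^ (D.nroots / 2) := by
  have hD' : D ∈ chevList := hD
  have hBG := borelSubgroup_le_group (F := F) D hD'
  have hHB : D.diagonalSubgroup F ≤ D.borelSubgroup F := le_sup_right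
  have h1 := Subgroup.card_eq_card_quotient_mul_card_subgroup
    (((D.diagonalSubgroup F).subgroupOf (D.group F)).subgroupOf
      ((D.borelSubgroup F).subgroupOf (D.group F)))
  have h2 : Nat.card ↥((D.borelSubgroup F).subgroupOf (D.group F)) =
      Nat.card ↥(D.borelSubgroup F) :=
    Nat.card_congr (Subgroup.subgroupOfEquivOfLe hBG).toEquiv
  have hle : (D.diagonalSubgroup F).subgroupOf (D.group F) ≤
      (D.borelSubgroup F).subgroupOf (D.group F) := by
    intro x hx
    exact Subgroup.mem_subgroupOf.2 (hHB (Subgroup.mem_subgroupOf.1 hx))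
  have h3 : Nat.card ↥(((D.diagonalSubgroup F).subgroupOf (D.group F)).subgroupOf
      ((D.borelSubgroup F).subgroupOf (D.group F))) = Nat.card ↥(D.diagonalSubgroup F) :=
    (Nat.card_congr (Subgroup.subgroupOfEquivOfLe hle).toEquiv).trans
      (Nat.card_congr (Subgroup.subgroupOfEquivOfLe (hHB.trans hBG)).toEquiv)
  rw [h2, h3, borel_card D hD] at h1
  have hpos : 0 < Nat.card ↥(D.diagonalSubgroup F) := Nat.card_pos
  exact (Nat.eq_of_mul_eq_mul_right hpos h1).symm

/-- The restriction of the Steinberg character to `B` is the permutation character on the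
cosets of `H`. -/
theorem st_borel [Finite F] (D : ChevalleyDatum)
    (hD : D ∈ [chevG2, chevB2, chevD4, chevF4, chevE6, chevE7, chevE8])
    (b : ↥((D.borelSubgroup F).subgroupOf (D.group F))) :
    D.steinbergCharacter F (((D.borelSubgroup F).subgroupOf (D.group F)).subtype b) =
      fixedPointCharacter (((D.diagonalSubgroup F).subgroupOf (D.group F)).subgroupOf
        ((D.borelSubgroup F).subgroupOf (D.group F))) b := by
  obtain ⟨n₀, hT, hw⟩ := st_noAsc (F := F) D hD
  have h0 := stSum_borel (chevBN (F := F) D hD) (stSigma (F := F) D hD) D.rank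
    (stSigma_injOn D hD) (st_S_eq D hD) (b : ↥(D.group F)) b.2
  have h1 := card_fixed_cell (chevBN (F := F) D hD)
    ((D.diagonalSubgroup F).subgroupOf (D.group F)) n₀ hT b
  rw [st_eq_stSum D hD]
  refine h0.trans ?_
  unfold fixedPointCharacter
  refine congrArg Nat.cast (Eq.trans ?_ h1)
  apply Nat.card_congr
  apply Equiv.subtypeEquivRight
  intro x
  constructor
  · rintro ⟨hx, w, hc, hno⟩
    refine ⟨hx, ?_⟩
    rw [← (hw w).1 hno]
    exact hc
  · rintro ⟨hx, hc⟩
    exact ⟨hx, _, hc, (hw _).2 rfl⟩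

/-- The degree of the Steinberg character is `q^N`. -/
theorem st_degree [Finite F] (D : ChevalleyDatum)
    (hD : D ∈ [chevG2, chevB2, chevD4, chevF4, chevE6, chevE7, chevE8]) :
    D.steinbergCharacter F 1 = ((Nat.card F ^ (D.nroots / 2) : ℕ) : ℂ) := by
  have h := st_borel (F := F) D hD 1
  rw [map_one] at h
  rw [h]
  unfold fixedPointCharacter
  congr 1
  rw [← st_card_quot D hD, MulAction.fixedBy_one_eq_univ]
  exact Nat.card_congr (Equiv.Set.univ _)

/-- The Steinberg character is irreducible. -/
theorem st_irr [Finite F] (D : ChevalleyDatum)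
    (hD : D ∈ [chevG2, chevB2, chevD4, chevF4, chevE6, chevE7, chevE8]) :
    IsIrrCharacter ↥(D.group F) (D.steinbergCharacter F) := by
  classical
  let _ : Fintype ↥(D.group F) := Fintype.ofFinite _
  obtain ⟨n₀, -, hw⟩ := st_noAsc (F := F) D hD
  have hU : ∀ w w' : W (chevBN (F := F) D hD), NoRAsc (SW (chevBN (F := F) D hD)) w →
      NoRAsc (SW (chevBN (F := F) D hD)) w' → w = w' :=
    fun w w' h h' => ((hw w).1 h).trans ((hw w').1 h').symm
  have hnorm := stSum_norm (chevBN (F := F) D hD) (stSigma (F := F) D hD) D.rank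
    (stSigma_injOn D hD) (st_S_eq D hD) hU
  have hdeg := st_degree (F := F) D hD
  rw [st_eq_stSum D hD] at hdeg ⊢
  exact stSum_irr (chevBN (F := F) D hD) (stSigma (F := F) D hD) D.rank hnorm
    (Nat.card F ^ (D.nroots / 2)) (pow_pos Nat.card_pos _) hdeg

/-- The Steinberg character vanishes on the `p`-singular elements. -/
theorem st_vanish [Fintype F] (p : ℕ) [Fact p.Prime] [CharP F p] (D : ChevalleyDatum)
    (hD : D ∈ [chevG2, chevB2, chevD4, chevF4, chevE6, chevE7, chevE8]) (g : ↥(D.group F))
    (hg : p ∣ orderOf g) : D.steinbergCharacter F g = 0 := by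
  have hD' : D ∈ chevList := hD
  refine irr_vanish_of_degree p (D.steinbergCharacter F) (st_irr D hD)
    (Nat.card F ^ (D.nroots / 2)) (st_degree D hD) ?_ g hg
  obtain ⟨P, hP⟩ := posUnipotent_sylow (F := F) p D hD
  have h1 := P.card_eq_multiplicity
  have h2 : Nat.card (P : Subgroup ↥(D.group F)) = Nat.card F ^ (D.nroots / 2) := by
    rw [hP, Nat.card_congr (Subgroup.subgroupOfEquivOfLe (posUnipotent_le_group D hD')).toEquiv]
    exact posUnipotent_card D hD
  rw [← h1]
  exact dvd_of_eq h2

end StChev3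

end Cfsg.Agent.Lib.Helper25
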